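import Mathlib

set_option autoImplicit false
set_option linter.style.haveILetI false
set_option linter.unusedSimpArgs false
set_option linter.unusedSectionVars false
set_option linter.unusedVariables false

/-!
# Faithful irreducible representations in characteristic `p` of a group with a cyclic
trivial-intersection Sylow subgroup
-/

namespace Cfsg.Agent.BlkInd

open scoped BigOperators
open Polynomial

universe u v w

section FreeSum

/-- summation over the points of a free action -/
theorem sum_free {P : Type u} {X : Type v} {A : Type w} [Group P] [Fintype P] [Fintype X]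
    [MulAction P X] [AddCommMonoid A] (hfree : ∀ (h : P) (x : X), h • x = x → h = 1)
    [Fintype (Quotient (MulAction.orbitRel P X))] (F : X → A) :
    ∑ x : X, F x = ∑ h : P, ∑ ω : Quotient (MulAction.orbitRel P X), F (h • ω.out) := by
  classical
  rw [Finset.sum_comm, ← Fintype.sum_prod_type' (fun (ω : Quotient (MulAction.orbitRel P X)) (h : P) =>
    F (h • ω.out))]
  symm
  refine Fintype.sum_bijective (fun y : Quotient (MulAction.orbitRel P X) × P => y.2 • y.1.out) ?_ _ _
    (fun _ => rfl)
  constructor
  · rintro ⟨ω, h⟩ ⟨ω', h'⟩ heq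
    simp only at heq
    have h1 : ω = ω' := by
      have e1 : (Quotient.mk'' (h • ω.out) : Quotient (MulAction.orbitRel P X)) = ω := by
        conv_rhs => rw [← Quotient.out_eq' ω]
        exact Quotient.sound' ⟨h, rfl⟩
      have e2 : (Quotient.mk'' (h' • ω'.out) : Quotient (MulAction.orbitRel P X)) = ω' := by
        conv_rhs => rw [← Quotient.out_eq' ω']
        exact Quotient.sound' ⟨h', rfl⟩
      rw [← e1, ← e2, heq]
    subst h1
    have h2 : (h'⁻¹ * h) • ω.out = ω.out := by rw [mul_smul, heq, inv_smul_smul]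
    have h3 := hfree _ _ h2
    have h4 : h = h' := by rwa [inv_mul_eq_one, eq_comm] at h3
    rw [h4]
  · intro x
    have h1 : (MulAction.orbitRel P X).r ((Quotient.mk'' x : Quotient (MulAction.orbitRel P X)).out) x :=
      Quotient.mk_out x
    have h2 := (MulAction.orbitRel P X).symm h1
    obtain ⟨h, hh⟩ := h2
    exact ⟨⟨Quotient.mk'' x, h⟩, hh⟩

end FreeSum

section Alg

variable {F : Type u} [Field F] {p : ℕ} [hp : Fact p.Prime] [CharP F p]

/-- in characteristic `p` the sum of the first `p^n` powers is `(X - 1)^(p^n - 1)` -/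
theorem geom_char (n : ℕ) : ∑ i ∈ Finset.range (p ^ n), (X : F[X]) ^ i = (X - 1) ^ (p ^ n - 1) := by
  have h1 : (∑ i ∈ Finset.range (p ^ n), (X : F[X]) ^ i) * (X - 1) = (X - 1) ^ (p ^ n - 1) * (X - 1) := by
    rw [geom_sum_mul, ← pow_succ, Nat.sub_add_cancel (Nat.one_le_pow _ _ hp.out.pos),
      sub_pow_char_pow, one_pow]
  have h2 : (X - 1 : F[X]) ≠ 0 := by
    have := Polynomial.X_sub_C_ne_zero (1 : F)
    simpa using this
  exact mul_right_cancel₀ h2 h1

/-- the trace of a cyclic group of order `p^n` in characteristic `p` -/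
theorem trace_eq (F : Type u) [Field F] [CharP F p] {E : Type v} [Ring E] [Algebra F E] {n : ℕ} {g g' : E} (hgg' : g * g' = 1) (hg'g : g' * g = 1)
    {d : ℕ} (hd : (g - 1) ^ d = 0) (hdn : d ≤ p ^ n) (b : E) :
    ∃ c : E, ∑ i ∈ Finset.range (p ^ n), g ^ i * b * g' ^ i = (g - 1) ^ (p ^ n - d) * c := by
  set L := LinearMap.mulLeft F g with hL
  set R := LinearMap.mulRight F g' with hR
  set q := p ^ n with hq
  have hLR : Commute L R := LinearMap.commute_mulLeft_right g g'
  have h1 : ∀ i : ℕ, g ^ i * b * g' ^ i = ((L * R) ^ i) b := by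
    intro i
    rw [hLR.mul_pow, hL, hR, LinearMap.pow_mulLeft, LinearMap.pow_mulRight, Module.End.mul_apply,
      LinearMap.mulLeft_apply, LinearMap.mulRight_apply, mul_assoc]
  have h2 : ∑ i ∈ Finset.range q, g ^ i * b * g' ^ i = ((L * R - 1) ^ (q - 1)) b := by
    rw [Finset.sum_congr rfl fun i _ => h1 i, ← LinearMap.sum_apply]
    have h3 := congrArg (Polynomial.aeval (L * R)) (geom_char (F := F) (p := p) n)
    rw [map_sum] at h3
    simp only [map_pow, map_sub, Polynomial.aeval_X, map_one] at h3
    rw [← h3]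
  -- `L R - 1 = (L_Δ - R_Δ) R`
  set LD := LinearMap.mulLeft F (g - 1) with hLD
  set RD := LinearMap.mulRight F (-(g - 1)) with hRD
  have h3 : L * R - 1 = (LD + RD) * R := by
    ext x
    simp only [hL, hR, hLD, hRD, LinearMap.sub_apply, Module.End.mul_apply, LinearMap.add_apply,
      LinearMap.mulLeft_apply, LinearMap.mulRight_apply, Module.End.one_apply]
    have : x * g' * -(g - 1) = -x + x * g' := by
      rw [mul_neg, mul_sub, mul_assoc x g' g, hg'g]
      simp only [mul_one, neg_sub]
      abel
    rw [this, sub_mul, one_mul]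
    abel
  have hc1 : Commute (LD + RD) R := by
    apply Commute.add_left
    · exact LinearMap.commute_mulLeft_right _ _
    · change RD * R = R * RD
      ext x
      simp only [hRD, hR, Module.End.mul_apply, LinearMap.mulRight_apply]
      have : g' * -(g - 1) = -(g - 1) * g' := by
        rw [mul_neg, neg_mul, mul_sub, sub_mul, hgg', hg'g]; simp
      rw [mul_assoc, mul_assoc, this]
  have hc2 : Commute LD RD := LinearMap.commute_mulLeft_right _ _
  rw [h2, h3, hc1.mul_pow, Module.End.mul_apply]
  generalize (R ^ (q - 1)) b = c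
  rw [hc2.add_pow, LinearMap.sum_apply]
  have h4 : ∀ m ∈ Finset.range (q - 1 + 1), ∃ e : E,
      (LD ^ m * RD ^ (q - 1 - m) * ((q - 1).choose m : Module.End F E)) c = (g - 1) ^ (q - d) * e := by
    intro m hm
    rw [Finset.mem_range] at hm
    have h5 : (LD ^ m * RD ^ (q - 1 - m) * ((q - 1).choose m : Module.End F E)) c =
        (g - 1) ^ m * ((((q - 1).choose m : Module.End F E) c) * (-(g - 1)) ^ (q - 1 - m)) := by
      rw [Module.End.mul_apply, Module.End.mul_apply, hLD, hRD, LinearMap.pow_mulLeft,
        LinearMap.pow_mulRight, LinearMap.mulLeft_apply, LinearMap.mulRight_apply]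
    rw [h5]
    by_cases hmd : q - d ≤ m
    · refine ⟨(g - 1) ^ (m - (q - d)) * ((((q - 1).choose m : Module.End F E) c) *
        (-(g - 1)) ^ (q - 1 - m)), ?_⟩
      have hm' : q - d + (m - (q - d)) = m := by omega
      rw [← mul_assoc, ← mul_assoc, ← pow_add, hm', mul_assoc]
    · refine ⟨0, ?_⟩
      have h6 : (-(g - 1)) ^ (q - 1 - m) = 0 := by
        have h7 : d ≤ q - 1 - m := by omega
        rw [neg_pow, pow_eq_zero_of_le h7 hd, mul_zero]
      rw [h6]; simp
  choose! e he using h4
  refine ⟨∑ m ∈ Finset.range (q - 1 + 1), e m, ?_⟩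
  rw [Finset.mul_sum]
  exact Finset.sum_congr rfl he

end Alg

end Cfsg.Agent.BlkInd
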