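import Mathlib
import Cfsg.Agent.BlkInd.CycTI

set_option autoImplicit false
set_option linter.style.haveILetI false
set_option linter.unusedSimpArgs false
set_option linter.unusedSectionVars false
set_option linter.unusedVariables false

/-!
# Feit's bound for cyclic trivial-intersection Sylow subgroups
-/

namespace Cfsg.Agent.BlkInd

open scoped BigOperators Pointwise
open MonoidAlgebra

universe u v w

section Rep

variable {G : Type u} [Group G] {F : Type v} [Field F] {V : Type w} [AddCommGroup V] [Module F V]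
  (ρ : Representation F G V)

/-- conjugation of endomorphisms -/
def cjE (g : G) (a : Module.End F V) : Module.End F V := ρ g * a * ρ g⁻¹

variable {ρ}

theorem cjE_one (a : Module.End F V) : cjE ρ 1 a = a := by
  unfold cjE
  rw [inv_one, map_one, one_mul, mul_one]

theorem cjE_mul_left (g h : G) (a : Module.End F V) : cjE ρ (g * h) a = cjE ρ g (cjE ρ h a) := by
  unfold cjE
  rw [mul_inv_rev, map_mul, map_mul]
  simp only [mul_assoc]

theorem rho_inv_mul (g : G) : ρ g⁻¹ * ρ g = 1 := by rw [← map_mul, inv_mul_cancel, map_one]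

theorem rho_mul_inv (g : G) : ρ g * ρ g⁻¹ = 1 := by rw [← map_mul, mul_inv_cancel, map_one]

theorem cjE_mul (g : G) (a b : Module.End F V) : cjE ρ g (a * b) = cjE ρ g a * cjE ρ g b := by
  unfold cjE
  calc ρ g * (a * b) * ρ g⁻¹ = ρ g * a * 1 * b * ρ g⁻¹ := by rw [mul_one]; simp only [mul_assoc]
    _ = ρ g * a * (ρ g⁻¹ * ρ g) * b * ρ g⁻¹ := by rw [rho_inv_mul]
    _ = _ := by simp only [mul_assoc]

theorem cjE_sum (g : G) {ι : Type*} (s : Finset ι) (f : ι → Module.End F V) :
    cjE ρ g (∑ i ∈ s, f i) = ∑ i ∈ s, cjE ρ g (f i) := by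
  unfold cjE
  rw [Finset.mul_sum, Finset.sum_mul]

theorem commute_of_cjE {g : G} {a : Module.End F V} (h : cjE ρ g a = a) : Commute (ρ g) a := by
  unfold cjE at h
  change ρ g * a = a * ρ g
  calc ρ g * a = ρ g * a * (ρ g⁻¹ * ρ g) := by rw [rho_inv_mul, mul_one]
    _ = ρ g * a * ρ g⁻¹ * ρ g := by simp only [mul_assoc]
    _ = a * ρ g := by rw [h]

/-- Schur's lemma -/
theorem schur_end [FiniteDimensional F V] (hirr : ρ.IsIrreducible) {T : Module.End F V}
    (hT : ∀ g : G, Commute (ρ g) T) : T = 0 ∨ IsUnit T := by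
  haveI : IsSimpleOrder (Subrepresentation ρ) := hirr
  let K : Subrepresentation ρ :=
    { toSubmodule := LinearMap.ker T
      apply_mem_toSubmodule := fun g v hv => by
        rw [LinearMap.mem_ker] at hv ⊢
        have h1 := congrArg (fun f : Module.End F V => f v) (hT g).eq
        simp only [Module.End.mul_apply] at h1
        rw [← h1, hv, map_zero] }
  rcases eq_bot_or_eq_top K with h | h
  · right
    have h1 : LinearMap.ker T = ⊥ := congrArg Subrepresentation.toSubmodule h
    exact (LinearMap.isUnit_iff_ker_eq_bot T).mpr h1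
  · left
    have h1 : LinearMap.ker T = ⊤ := congrArg Subrepresentation.toSubmodule h
    exact LinearMap.ker_eq_top.mp h1

end Rep

section Tr

variable {G : Type u} [Group G] [Finite G] {p : ℕ} [hp : Fact p.Prime] (P : Sylow p G)
  {F : Type v} [Field F] {V : Type w} [AddCommGroup V] [Module F V]
  {ρ : Representation F G V}

theorem mem_of_pElement_normalizer {x : G} (hx : IsPGroup p (Subgroup.zpowers x))
    (hxN : x ∈ Subgroup.normalizer ((P : Subgroup G) : Set G)) : x ∈ (P : Subgroup G) := by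
  have h1 := hx.inf_normalizer_sylow P
  have h2 : x ∈ Subgroup.zpowers x ⊓ Subgroup.normalizer (P : Set G) :=
    ⟨Subgroup.mem_zpowers x, hxN⟩
  rw [h1] at h2
  exact h2.2

theorem smul_coset_ne {h : ↥(P : Subgroup G)}
    {x : G ⧸ Subgroup.normalizer ((P : Subgroup G) : Set G)}
    (hx : x ≠ ((1 : G) : G ⧸ Subgroup.normalizer ((P : Subgroup G) : Set G))) :
    (h : G) • x ≠ ((1 : G) : G ⧸ Subgroup.normalizer ((P : Subgroup G) : Set G)) := by
  intro h0
  apply hx
  have h1 : x = (h : G)⁻¹ • ((1 : G) : G ⧸ Subgroup.normalizer ((P : Subgroup G) : Set G)) := by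
    rw [← h0, inv_smul_smul]
  rw [h1, MulAction.Quotient.smul_coe, smul_eq_mul, mul_one, QuotientGroup.eq, mul_one, inv_inv]
  exact Subgroup.le_normalizer h.2

/-- the Mackey decomposition of the relative trace for a trivial-intersection Sylow subgroup -/
theorem exists_trace [Fintype (P : Subgroup G)]
    (hTI : ∀ Q : Sylow p G, Q ≠ P → (P : Subgroup G) ⊓ (Q : Subgroup G) = ⊥)
    (θ : Module.End F V)
    (hθ : ∀ n ∈ Subgroup.normalizer ((P : Subgroup G) : Set G), cjE ρ n θ = θ) :
    ∃ T b : Module.End F V, (∀ g, cjE ρ g T = T) ∧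
      T = θ + ∑ h : ↥(P : Subgroup G), cjE ρ (h : G) b := by
  classical
  set N := Subgroup.normalizer ((P : Subgroup G) : Set G) with hN
  haveI : Fintype (G ⧸ N) := Fintype.ofFinite _
  let f : G ⧸ N → Module.End F V := fun q => cjE ρ q.out θ
  have hf : ∀ g : G, f (g : G ⧸ N) = cjE ρ g θ := by
    intro g
    obtain ⟨n, hn⟩ := QuotientGroup.mk_out_eq_mul N g
    change cjE ρ ((g : G ⧸ N)).out θ = _
    rw [hn, cjE_mul_left, hθ n n.2]
  have hf' : ∀ (g : G) (q : G ⧸ N), cjE ρ g (f q) = f (g • q) := by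
    intro g q
    induction q using QuotientGroup.induction_on with
    | H x =>
      rw [MulAction.Quotient.smul_coe, smul_eq_mul, hf, hf, cjE_mul_left]
  letI hinst : MulAction ↥(P : Subgroup G) {x : G ⧸ N // x ≠ ((1 : G) : G ⧸ N)} :=
    { smul := fun h x => ⟨(h : G) • x.1, smul_coset_ne P x.2⟩
      one_smul := fun x => Subtype.ext (one_smul G x.1)
      mul_smul := fun a b x => Subtype.ext (mul_smul (a : G) (b : G) x.1) }
  have hsm : ∀ (h : ↥(P : Subgroup G)) (x : {x : G ⧸ N // x ≠ ((1 : G) : G ⧸ N)}),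
      ((h • x : {x : G ⧸ N // x ≠ ((1 : G) : G ⧸ N)}) : G ⧸ N) = (h : G) • (x : G ⧸ N) :=
    fun _ _ => rfl
  haveI : Fintype (Quotient (MulAction.orbitRel ↥(P : Subgroup G)
    {x : G ⧸ N // x ≠ ((1 : G) : G ⧸ N)})) := Fintype.ofFinite _
  have hfree : ∀ (h : ↥(P : Subgroup G)) (x : {x : G ⧸ N // x ≠ ((1 : G) : G ⧸ N)}),
      h • x = x → h = 1 := by
    intro h x hx
    obtain ⟨x, hx1⟩ := x
    replace hx : (h : G) • x = x := congrArg Subtype.val hx
    induction x using QuotientGroup.induction_on with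
    | H g =>
      rw [MulAction.Quotient.smul_coe, smul_eq_mul, eq_comm, QuotientGroup.eq] at hx
      -- `g⁻¹ h g ∈ N` is a `p`-element
      have h2 : g⁻¹ * ((h : G) * g) ∈ (P : Subgroup G) := by
        apply mem_of_pElement_normalizer P _ hx
        have hord : orderOf (g⁻¹ * ((h : G) * g)) = orderOf (h : G) := by
          have := orderOf_injective (MulAut.conj g⁻¹).toMonoidHom (MulAut.conj g⁻¹).injective (h : G)
          rw [← this]
          congr 1
          simp [mul_assoc]
        obtain ⟨k, hk⟩ := IsPGroup.iff_orderOf.mp P.isPGroup' h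
        exact IsPGroup.of_card (n := k) (by rw [Nat.card_zpowers, hord, Subgroup.orderOf_coe, hk])
      have h3 : g • P ≠ P := by
        intro h0
        apply hx1
        rw [Sylow.smul_eq_iff_mem_normalizer] at h0
        rw [eq_comm, QuotientGroup.eq, inv_one, one_mul]
        exact h0
      have h4 := hTI (g • P) h3
      have h5 : (h : G) ∈ (P : Subgroup G) ⊓ ((g • P : Sylow p G) : Subgroup G) := by
        refine ⟨h.2, ?_⟩
        change (h : G) ∈ MulAut.conj g • (P : Subgroup G)
        rw [Subgroup.mem_pointwise_smul_iff_inv_smul_mem]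
        have : (MulAut.conj g)⁻¹ • (h : G) = g⁻¹ * ((h : G) * g) := by
          rw [← map_inv, MulAut.smul_def, MulAut.conj_apply, inv_inv, mul_assoc]
        rw [this]
        exact h2
      rw [h4, Subgroup.mem_bot] at h5
      exact Subtype.ext h5
  refine ⟨∑ q : G ⧸ N, f q, ∑ ω : Quotient (MulAction.orbitRel ↥(P : Subgroup G)
    {x : G ⧸ N // x ≠ ((1 : G) : G ⧸ N)}), f (ω.out : {x : G ⧸ N // x ≠ ((1 : G) : G ⧸ N)}), ?_, ?_⟩
  · intro g
    rw [cjE_sum, Finset.sum_congr rfl fun q _ => hf' g q]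
    exact Fintype.sum_equiv (MulAction.toPerm g) _ _ fun q => rfl
  · rw [Fintype.sum_eq_add_sum_subtype_ne f ((1 : G) : G ⧸ N), hf, cjE_one]
    congr 1
    rw [sum_free hfree (fun x => f x)]
    refine Finset.sum_congr rfl fun h _ => ?_
    rw [cjE_sum]
    exact Finset.sum_congr rfl fun ω _ => by rw [hf', hsm]

end Tr

end Cfsg.Agent.BlkInd
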