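import Mathlib
import Cfsg.Agent.BlkInd.CycTI2

set_option autoImplicit false
set_option linter.style.haveILetI false
set_option linter.unusedSimpArgs false
set_option linter.unusedSectionVars false
set_option linter.unusedVariables false

/-!
# Feit's bound for cyclic trivial-intersection Sylow subgroups: the bound
-/

namespace Cfsg.Agent.BlkInd

open scoped BigOperators Pointwise
open MonoidAlgebra

universe u v w

section Cyc

/-- the number of automorphisms induced by the normalizer of a cyclic Sylow subgroup -/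
theorem card_range_normalizer_le {G : Type u} [Group G] [Finite G] {p : ℕ} [hp : Fact p.Prime]
    (P : Sylow p G) [hcyc : IsCyclic ↥(P : Subgroup G)] {n : ℕ} (hn : 1 ≤ n)
    (hPn : Nat.card ↥(P : Subgroup G) = p ^ n) :
    Nat.card ((P : Subgroup G).normalizerMonoidHom).range ≤ p - 1 := by
  set φ := (P : Subgroup G).normalizerMonoidHom with hφ
  have h1 : Nat.card φ.range ∣ Nat.card (MulAut ↥(P : Subgroup G)) := Subgroup.card_subgroup_dvd_card _
  have h2 : Nat.card (MulAut ↥(P : Subgroup G)) = p ^ (n - 1) * (p - 1) := by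
    rw [Nat.card_congr (IsCyclic.mulAutMulEquiv ↥(P : Subgroup G)).toEquiv, hPn]
    haveI : NeZero (p ^ n) := ⟨(pow_pos hp.out.pos n).ne'⟩
    rw [Nat.card_eq_fintype_card, ZMod.card_units_eq_totient, Nat.totient_prime_pow hp.out (by omega)]
  have h3 : (Nat.card φ.range).Coprime (p ^ (n - 1)) := by
    apply Nat.Coprime.pow_right
    rw [Nat.coprime_comm, Nat.Prime.coprime_iff_not_dvd hp.out]
    intro hdvd
    have h4 : Nat.card φ.range = φ.ker.index := (Subgroup.index_ker φ).symm
    have h5 : (P : Subgroup G).subgroupOf (Subgroup.normalizer ((P : Subgroup G) : Set G)) ≤ φ.ker := by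
      rw [hφ, Subgroup.normalizerMonoidHom_ker]
      intro x hx
      rw [Subgroup.mem_subgroupOf] at hx ⊢
      rw [Subgroup.mem_centralizer_iff]
      intro y hy
      have h6 : IsMulCommutative ↥(P : Subgroup G) := IsCyclic.isMulCommutative
      exact congrArg Subtype.val (h6.is_comm.comm ⟨y, hy⟩ ⟨x, hx⟩)
    have h6 : φ.ker.index ∣ ((P : Subgroup G).subgroupOf
      (Subgroup.normalizer ((P : Subgroup G) : Set G))).index := Subgroup.index_dvd_of_le h5
    have h7 : ((P : Subgroup G).relIndex (Subgroup.normalizer ((P : Subgroup G) : Set G))) ∣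
      (P : Subgroup G).index := Subgroup.relIndex_dvd_index_of_le Subgroup.le_normalizer
    have h8 : p ∣ (P : Subgroup G).index := by
      rw [h4] at hdvd
      exact (hdvd.trans h6).trans h7
    exact P.not_dvd_index h8
  rw [h2] at h1
  exact Nat.le_of_dvd (Nat.sub_pos_of_lt hp.out.one_lt) (h3.dvd_of_dvd_mul_left h1)

/-- the nilpotency of a difference with an element of `p`-power order -/
theorem sub_one_pow {F : Type u} [Field F] {p : ℕ} [hp : Fact p.Prime] [CharP F p] {E : Type v}
    [Ring E] [Algebra F E] (g : E) (n : ℕ) : (g - 1) ^ p ^ n = g ^ p ^ n - 1 := by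
  have h1 : (Polynomial.X - 1 : Polynomial F) ^ p ^ n = Polynomial.X ^ p ^ n - 1 := by
    rw [sub_pow_char_pow, one_pow]
  have h2 := congrArg (Polynomial.aeval g) h1
  simpa using h2

variable {G : Type u} [Group G] [Finite G] {p : ℕ} [hp : Fact p.Prime] (P : Sylow p G)
  {F : Type v} [Field F] [CharP F p] {V : Type w} [AddCommGroup V] [Module F V]
  (ρ : Representation F G V)

/-- the element of the group algebra of `P` invariant under the normalizer -/
theorem exists_theta [hcyc : IsCyclic ↥(P : Subgroup G)] {n : ℕ}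
    (hPn : Nat.card ↥(P : Subgroup G) = p ^ n) {y : ↥(P : Subgroup G)}
    (hy : ∀ x : ↥(P : Subgroup G), x ∈ Subgroup.zpowers y) :
    ∃ θ b : Module.End F V,
      (∀ k ∈ Subgroup.normalizer ((P : Subgroup G) : Set G), cjE ρ k θ = θ) ∧
      IsNilpotent θ ∧
      (∀ T : Module.End F V, (∀ g, Commute (ρ g) T) → Commute θ T) ∧
      (ρ (y : G) - 1) ^ (Nat.card ((P : Subgroup G).normalizerMonoidHom).range) = θ * b := by
  classical
  set φ := (P : Subgroup G).normalizerMonoidHom with hφ
  haveI : Fintype φ.range := Fintype.ofFinite _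
  letI : CommGroup ↥(P : Subgroup G) := IsCyclic.commGroup
  let Φ : MonoidAlgebra F ↥(P : Subgroup G) →ₐ[F] Module.End F V :=
    MonoidAlgebra.lift F (Module.End F V) ↥(P : Subgroup G) (ρ.comp (P : Subgroup G).subtype)
  have hΦ : ∀ h : ↥(P : Subgroup G), Φ (single h 1) = ρ (h : G) := by
    intro h
    simp [Φ]
  let fac : φ.range → MonoidAlgebra F ↥(P : Subgroup G) :=
    fun α => single ((α : MulAut ↥(P : Subgroup G)) y) 1 - 1
  let a0 : MonoidAlgebra F ↥(P : Subgroup G) := ∏ α : φ.range, fac α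
  -- divisibility
  have hfac : ∀ α : φ.range, fac α ∣ (single y 1 - 1 : MonoidAlgebra F ↥(P : Subgroup G)) := by
    intro α
    have h1 : (α : MulAut ↥(P : Subgroup G))⁻¹ y ∈ Subgroup.zpowers y := hy _
    rw [mem_zpowers_iff_mem_range_orderOf] at h1
    rw [Finset.mem_image] at h1
    obtain ⟨j, -, hj⟩ := h1
    have h2 : ((α : MulAut ↥(P : Subgroup G)) y) ^ j = y := by
      rw [← map_pow, hj, MulAut.apply_inv_self]
    have h3 : (single y 1 - 1 : MonoidAlgebra F ↥(P : Subgroup G)) =
        (single ((α : MulAut ↥(P : Subgroup G)) y) 1) ^ j - 1 ^ j := by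
      rw [MonoidAlgebra.single_pow, h2, one_pow, one_pow]
    rw [h3]
    exact sub_dvd_pow_sub_pow _ _ j
  have hdvd : a0 ∣ (single y 1 - 1 : MonoidAlgebra F ↥(P : Subgroup G)) ^ Nat.card φ.range := by
    have h1 : ∏ α : φ.range, fac α ∣
        ∏ α : φ.range, (single y 1 - 1 : MonoidAlgebra F ↥(P : Subgroup G)) :=
      Finset.prod_dvd_prod_of_dvd _ _ fun α _ => hfac α
    rwa [Finset.prod_const, Finset.card_univ, ← Nat.card_eq_fintype_card] at h1
  obtain ⟨b, hb⟩ := hdvd
  have hdvd' : (single y 1 - 1 : MonoidAlgebra F ↥(P : Subgroup G)) ∣ a0 := by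
    have h1 : fac 1 ∣ a0 := Finset.dvd_prod_of_mem _ (Finset.mem_univ _)
    exact h1
  obtain ⟨c, hc⟩ := hdvd'
  have hyp : y ^ p ^ n = 1 := by rw [← hPn, pow_card_eq_one']
  have hnil : (ρ (y : G) - 1) ^ p ^ n = 0 := by
    rw [sub_one_pow (F := F), ← map_pow]
    have : (y : G) ^ p ^ n = 1 := congrArg Subtype.val hyp
    rw [this, map_one, sub_self]
  refine ⟨Φ a0, Φ b, ?_, ?_, ?_, ?_⟩
  · intro k hk
    let ψ : MonoidAlgebra F ↥(P : Subgroup G) →ₐ[F] MonoidAlgebra F ↥(P : Subgroup G) :=
      MonoidAlgebra.mapDomainAlgHom F F ((φ ⟨k, hk⟩ : MulAut ↥(P : Subgroup G)) :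
        ↥(P : Subgroup G) →* ↥(P : Subgroup G))
    have hψ : ∀ h : ↥(P : Subgroup G), ψ (single h 1) = single ((φ ⟨k, hk⟩ : MulAut ↥(P : Subgroup G)) h) 1 := by
      intro h
      simp [ψ]
    have h1 : ∀ r : MonoidAlgebra F ↥(P : Subgroup G), cjE ρ k (Φ r) = Φ (ψ r) := by
      intro r
      induction r using MonoidAlgebra.induction_linear with
      | zero => unfold cjE; simp
      | add x y hx hy =>
        have : cjE ρ k (Φ (x + y)) = cjE ρ k (Φ x) + cjE ρ k (Φ y) := by
          unfold cjE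
          rw [map_add, mul_add, add_mul]
        rw [this, hx, hy, map_add, map_add]
      | single g a =>
        have h2 : (single g a : MonoidAlgebra F ↥(P : Subgroup G)) = a • single g 1 := by
          rw [MonoidAlgebra.smul_single, smul_eq_mul, mul_one]
        rw [h2, map_smul, map_smul, map_smul, hψ, hΦ, hΦ]
        unfold cjE
        rw [mul_smul_comm, smul_mul_assoc, ← map_mul, ← map_mul]
        rfl
    rw [h1]
    congr 1
    change ψ (∏ α : φ.range, fac α) = ∏ α : φ.range, fac α
    rw [map_prod]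
    refine Fintype.prod_equiv (Equiv.mulLeft (⟨φ ⟨k, hk⟩, ⟨_, rfl⟩⟩ : φ.range)) _ _ fun α => ?_
    simp only [fac, map_sub, map_one, hψ, Equiv.coe_mulLeft, Subgroup.coe_mul, MulAut.mul_apply]
  · refine ⟨p ^ n, ?_⟩
    rw [hc, ← map_pow, mul_pow, map_mul, map_pow, map_sub, map_one, hΦ, hnil, zero_mul]
  · intro T hT
    have h1 : ∀ r : MonoidAlgebra F ↥(P : Subgroup G), Commute (Φ r) T := by
      intro r
      induction r using MonoidAlgebra.induction_linear with
      | zero => rw [map_zero]; exact Commute.zero_left T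
      | add x y hx hy => rw [map_add]; exact hx.add_left hy
      | single g a =>
        have h2 : (single g a : MonoidAlgebra F ↥(P : Subgroup G)) = a • single g 1 := by
          rw [MonoidAlgebra.smul_single, smul_eq_mul, mul_one]
        rw [h2, map_smul, hΦ]
        exact (hT _).smul_left a
    exact h1 a0
  · have h1 := congrArg Φ hb
    rw [map_pow, map_sub, map_one, hΦ, map_mul] at h1
    exact h1

/-- the main bound -/
theorem feit_bound [FiniteDimensional F V] (hcyc : IsCyclic ↥(P : Subgroup G)) {n : ℕ} (hn : 2 ≤ n)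
    (hPn : Nat.card ↥(P : Subgroup G) = p ^ n)
    (hTI : ∀ Q : Sylow p G, Q ≠ P → (P : Subgroup G) ⊓ (Q : Subgroup G) = ⊥)
    (hfaith : Function.Injective ρ) (hirr : ρ.IsIrreducible) :
    p ^ n - (p - 1) ≤ Module.finrank F V := by
  classical
  haveI : Fintype ↥(P : Subgroup G) := Fintype.ofFinite _
  obtain ⟨y, hy⟩ := hcyc.exists_generator
  obtain ⟨θ, b, hθ, hθnil, hθcomm, hθb⟩ := exists_theta P ρ hPn hy
  have he := card_range_normalizer_le P (by omega : 1 ≤ n) hPn
  set e := Nat.card ((P : Subgroup G).normalizerMonoidHom).range with he'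
  obtain ⟨T, c, hT, hTc⟩ := exists_trace P hTI θ hθ
  by_contra hlt
  push Not at hlt
  set Δ := ρ (y : G) - 1 with hΔ
  have hyord : orderOf y = p ^ n := by
    rw [← hPn]
    exact orderOf_eq_card_of_forall_mem_zpowers hy
  have hypn : (y : G) ^ p ^ n = 1 := by
    have : y ^ p ^ n = 1 := by rw [← hyord, pow_orderOf_eq_one]
    exact congrArg Subtype.val this
  have hnil : Δ ^ p ^ n = 0 := by
    rw [hΔ, sub_one_pow (F := F), ← map_pow, hypn, map_one, sub_self]
  have hfin : Δ ^ Module.finrank F V = 0 := by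
    have h1 := (LinearMap.isNilpotent_iff_charpoly Δ).mp ⟨_, hnil⟩
    have h2 := LinearMap.aeval_self_charpoly Δ
    rw [h1] at h2
    simpa using h2
  have hex : ∃ d, Δ ^ d = 0 := ⟨_, hfin⟩
  set d := Nat.find hex with hd
  have hd0 : Δ ^ d = 0 := Nat.find_spec hex
  have hdle : d ≤ Module.finrank F V := Nat.find_min' hex hfin
  have hdmin : ∀ k, k < d → Δ ^ k ≠ 0 := fun k hk => Nat.find_min hex hk
  have hpe : e < p := lt_of_le_of_lt he (Nat.sub_lt hp.out.pos Nat.one_pos)
  have hde : e < d := by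
    by_contra hle
    push Not at hle
    have h1 : d ≤ p ^ (n - 1) := by
      have : p ^ 1 ≤ p ^ (n - 1) := Nat.pow_le_pow_right hp.out.pos (by omega)
      rw [pow_one] at this
      omega
    have h2 : Δ ^ p ^ (n - 1) = 0 := pow_eq_zero_of_le h1 hd0
    rw [hΔ, sub_one_pow (F := F), ← map_pow, sub_eq_zero, ← map_one ρ] at h2
    have h3 : (y : G) ^ p ^ (n - 1) = 1 := hfaith h2
    have h4 : y ^ p ^ (n - 1) = 1 := Subtype.ext h3
    have h5 := orderOf_dvd_of_pow_eq_one h4
    rw [hyord] at h5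
    have h6 := Nat.le_of_dvd (pow_pos hp.out.pos _) h5
    have h7 : p ^ (n - 1) < p ^ n := Nat.pow_lt_pow_right hp.out.one_lt (by omega)
    omega
  have hdq : d + e < p ^ n := by
    have : p - 1 ≤ p ^ n := (Nat.sub_le p 1).trans (Nat.le_self_pow (by omega) p)
    omega
  -- the trace
  have htr : ∃ z : Module.End F V, ∑ h : ↥(P : Subgroup G), cjE ρ (h : G) c = Δ ^ (p ^ n - d) * z := by
    obtain ⟨z, hz⟩ := trace_eq (p := p) F (E := Module.End F V) (n := n) (g := ρ (y : G))
      (g' := ρ (y : G)⁻¹) (rho_mul_inv _) (rho_inv_mul _) hd0 (by omega) c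
    refine ⟨z, ?_⟩
    rw [← hz]
    have himg : Finset.image (fun i => y ^ i) (Finset.range (orderOf y)) = Finset.univ :=
      IsCyclic.image_range_orderOf hy
    rw [← himg, Finset.sum_image, hyord]
    · refine Finset.sum_congr rfl fun i _ => ?_
      unfold cjE
      rw [Subgroup.coe_pow, ← inv_pow, map_pow, map_pow]
    · intro i hi j hj hij
      rw [Finset.coe_range] at hi hj
      exact pow_injOn_Iio_orderOf hi hj hij
  obtain ⟨z, hz⟩ := htr
  rw [hz] at hTc
  have hTcomm : ∀ g : G, Commute (ρ g) T := fun g => commute_of_cjE (hT g)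
  rcases schur_end hirr hTcomm with h0 | hunit
  · -- `T = 0`
    have h1 : θ = - (Δ ^ (p ^ n - d) * z) := by
      rw [h0] at hTc
      exact eq_neg_of_add_eq_zero_left hTc.symm
    have h2 : Δ ^ e = Δ ^ (e + 1) * (-(Δ ^ (p ^ n - d - (e + 1)) * z * b)) := by
      have h3 : p ^ n - d = (e + 1) + (p ^ n - d - (e + 1)) := by omega
      rw [hθb, h1, neg_mul, mul_neg, neg_inj]
      conv_lhs => rw [h3, pow_add]
      simp only [mul_assoc]
    have h3 : Δ ^ (d - 1) = 0 := by
      have h4 : d - 1 = (d - 1 - e) + e := by omega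
      rw [h4, pow_add, h2, ← mul_assoc, ← pow_add]
      have h5 : d - 1 - e + (e + 1) = d := by omega
      rw [h5, hd0, zero_mul]
    exact hdmin (d - 1) (by omega) h3
  · -- `T` is a unit
    have h1 : IsUnit (Δ ^ (p ^ n - d) * z) := by
      have h2 : Δ ^ (p ^ n - d) * z = -θ + T := by
        rw [hTc]; abel
      rw [h2]
      exact (hθnil.neg).isUnit_add_right_of_commute hunit ((hθcomm T hTcomm).neg_left)
    obtain ⟨u, hu⟩ := h1
    have h2 : Δ * (Δ ^ (p ^ n - d - 1) * z * ((u⁻¹ : (Module.End F V)ˣ) : Module.End F V)) = 1 := by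
      have h3 : Δ * Δ ^ (p ^ n - d - 1) = Δ ^ (p ^ n - d) := by
        rw [← pow_succ']
        congr 1
        omega
      rw [← mul_assoc, ← mul_assoc, h3, ← hu, Units.mul_inv]
    have h3 : Δ ^ (d - 1) = 0 := by
      calc Δ ^ (d - 1) = Δ ^ (d - 1) * (Δ * (Δ ^ (p ^ n - d - 1) * z *
          ((u⁻¹ : (Module.End F V)ˣ) : Module.End F V))) := by rw [h2, mul_one]
        _ = Δ ^ d * (Δ ^ (p ^ n - d - 1) * z * ((u⁻¹ : (Module.End F V)ˣ) : Module.End F V)) := by
          rw [← mul_assoc, ← pow_succ]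
          congr 2
          omega
        _ = 0 := by rw [hd0, zero_mul]
    exact hdmin (d - 1) (by omega) h3

end Cyc

end Cfsg.Agent.BlkInd
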