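import Mathlib
import Cfsg.Agent.BlkInd.SecGal
import Cfsg.Agent.BlkInd.FocAct
import Cfsg.Agent.BlkF.Sat
import Cfsg.Agent.BlkF.IndBr

set_option autoImplicit false
set_option linter.style.haveILetI false
set_option linter.unusedSimpArgs false
set_option linter.unusedSectionVars false
set_option linter.unusedVariables false

/-!
# Heights, the inertial index and the centre of the defect group
-/

namespace Cfsg.Agent.BlkInd

open scoped BigOperators ComplexConjugate
open Cfsg Cfsg.Agent.CharBase Cfsg.Agent.Blk Cfsg.Agent.BlkC Cfsg.Agent.Star MonoidAlgebra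

universe u v w

section Mod

variable {k : Type*} [Field k] {G : Type u} [Group G] [Fintype G] {p : ℕ} [Fact p.Prime] [CharP k p]
  {P : Subgroup G} {e : MonoidAlgebra k G}

theorem isDef_stab_of_normalized (he : MMax p P e) {Q : Subgroup G}
    {f : MonoidAlgebra k G} (hQ : MLe p Q f P e)
    (hPQ : P ≤ Subgroup.normalizer (Q : Set G)) :
    IsDef p (stab (Subgroup.normalizer (Q : Set G)) f) f P := by
  obtain ⟨⟨D, hD, hPD⟩, u, hu, hD'⟩ := he.normalizer_defect hQ
  rw [inf_eq_left.mpr hPQ] at hPD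
  have h1 := hD.cj u
  rw [stab_map_conj, normalizer_map_conj] at h1
  have h2 := hD'.card_eq h1
  rw [card_map_conj] at h2
  have h3 : P = D := by
    apply Subgroup.eq_of_le_of_card_ge hPD
    rw [h2]
    exact Subgroup.card_le_of_le inf_le_left
  rw [h3]
  exact hD

/-- **The stabilizer of a maximal pair controls the fusion of central elements.** -/
theorem exists_stab_of_central (he : MMax p P e) {z₀ z g : G} {f₀ f : MonoidAlgebra k G}
    (hz₀ : z₀ ∈ P ⊓ Subgroup.centralizer (P : Set G))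
    (hz : z ∈ P ⊓ Subgroup.centralizer (P : Set G))
    (h₀ : MLe p (Subgroup.zpowers z₀) f₀ P e) (h : MLe p (Subgroup.zpowers z) f P e)
    (hgz : z = g * z₀ * g⁻¹) (hgf : f = Blk.cj g f₀) :
    ∃ t ∈ stab (Subgroup.normalizer (P : Set G)) e, z = t * z₀ * t⁻¹ := by
  have hPN : ∀ y : G, y ∈ P ⊓ Subgroup.centralizer (P : Set G) →
      P ≤ Subgroup.normalizer (Subgroup.zpowers y : Set G) := by
    intro y hy x hx
    apply centralizer_le_normalizer
    rw [mem_cent_zpowers]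
    exact (Subgroup.mem_centralizer_iff.mp hy.2 x hx).symm
  have hD := isDef_stab_of_normalized he h (hPN z hz)
  have hrec := BlkF.isReceptive_of_isDef he.1 h (by
    rw [inf_eq_left.mpr (hPN z hz)]; exact hD)
  rw [Fus.isReceptive_iff] at hrec
  have hcj : BlkF.cjS g (Subgroup.zpowers z₀) = Subgroup.zpowers z := by
    rw [hgz, zpowers_conj]
  have hcar : BlkF.Car p P e (Subgroup.zpowers z₀) g := by
    rw [BlkF.car_iff he.1 h₀, hcj, ← hgf]; exact h
  obtain ⟨g', hg', hgg⟩ := hrec.2 (Subgroup.zpowers z₀) (fun x => g * x * g⁻¹)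
    ((BlkF.isMap_blkFus he.1).2 ⟨g, fun x _ => rfl, hcar⟩)
    (by rw [BlkF.img_eq_cjS (g := g) (fun x _ => rfl)]; exact hcj) P
    (Subgroup.zpowers_le.mpr hz₀.1) (by
      intro n hn
      refine ⟨hn, hPN z₀ hz₀ hn, 1, P.one_mem, fun x hx => ?_⟩
      have h1 : n * x * n⁻¹ = x := by
        have h2 : n ∈ Subgroup.centralizer (Subgroup.zpowers z₀ : Set G) := by
          rw [mem_cent_zpowers]
          exact (Subgroup.mem_centralizer_iff.mp hz₀.2 n hn).symm
        have h3 := Subgroup.mem_centralizer_iff.mp h2 x hx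
        rw [← h3, mul_inv_cancel_right]
      rw [h1]; simp)
  obtain ⟨t, ht1, ht2⟩ := (BlkF.isMap_blkFus he.1).1 hg'
  refine ⟨t, ?_, ?_⟩
  · rw [BlkF.mem_stab_iff_car he.1 (MLe.refl P e)]
    refine ⟨?_, ht2⟩
    apply Subgroup.eq_of_le_of_card_ge ht2.le'
    rw [card_map_conj]
  · rw [← ht1 z₀ hz₀.1, hgg z₀ (Subgroup.mem_zpowers z₀)]
    exact hgz

end Mod

section Count

variable {G : Type*} [Group G] [Finite G]

theorem card_le_relIndex {H T : Subgroup G} {z₀ : G} (hH : ∀ h ∈ H, h * z₀ * h⁻¹ = z₀)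
    (S : Finset G) (hS : ∀ z ∈ S, ∃ t ∈ T, z = t * z₀ * t⁻¹) : S.card ≤ H.relIndex T := by
  classical
  choose! t ht1 ht2 using hS
  have h1 : Function.Injective (fun z : S => (QuotientGroup.mk (⟨t z, ht1 z z.2⟩ : T) :
      T ⧸ H.subgroupOf T)) := by
    intro z z' hzz
    have h2 := QuotientGroup.eq.mp hzz
    rw [Subgroup.mem_subgroupOf] at h2
    have h3 := hH _ h2
    apply Subtype.ext
    rw [ht2 z z.2, ht2 z' z'.2]
    push_cast at h3
    calc t z * z₀ * (t z)⁻¹ = t z * ((t z)⁻¹ * t z' * z₀ * ((t z)⁻¹ * t z')⁻¹) * (t z)⁻¹ := by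
          rw [h3]
      _ = t z' * z₀ * (t z')⁻¹ := by group
  have h2 := Nat.card_le_card_of_injective _ h1
  rw [Nat.card_eq_fintype_card, Fintype.card_coe] at h2
  exact h2

end Count

section Main

variable {G : Type u} [Group G] [Fintype G] {M : Ideal AlgInt} [hM : M.IsPrime] {p : ℕ}
  [hp : Fact p.Prime] {B : Set (IrrCharacter G)} {P : Subgroup G} {E : MonoidAlgebra (kM M) G}

theorem re_mul_nonneg_aux {a b : ℝ} (c : ℂ) (h : a ≤ b) (hc : 0 ≤ c.re) (hc' : ((c.re : ℝ) : ℂ) = c) :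
    ((a : ℂ) * c).re ≤ ((b : ℂ) * c).re := by
  rw [Complex.re_ofReal_mul, Complex.re_ofReal_mul]
  exact mul_le_mul_of_nonneg_right h hc

open Classical in
/-- the sum of the contributions of a family of subsections whose orbits overlap at most `N` times -/
theorem sum_contrib_le (hMod : IsPModular p M) (χ : IrrCharacter G) {ι : Type*} (s : Finset ι)
    (x : ι → G) (F : ι → MonoidAlgebra (kM M) G) (N : ℕ)
    (hN : ∀ (v : G) (f : MonoidAlgebra (kM M) G),
      (s.filter (fun i => ∃ g : G, v = g * x i * g⁻¹ ∧ f = Blk.cj g (F i))).card ≤ N) :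
    ∑ i ∈ s, (classInner (wstar p (wOrb (x i) (F i)) (χ : G → ℂ)) (χ : G → ℂ)).re ≤ N := by
  have hχ := irr_isClassFunction χ
  have h1 : ∀ i, classInner (wstar p (wOrb (x i) (F i)) (χ : G → ℂ)) (χ : G → ℂ) = _ :=
    fun i => classInner_wstar_sum (w := wOrb (x i) (F i)) hMod hχ hχ
  have h2 : classInner (wstar p (fun (_ : G) (_ : MonoidAlgebra (kM M) G) => (1 : ℂ)) (χ : G → ℂ))
      (χ : G → ℂ) = _ :=
    classInner_wstar_sum (w := fun (_ : G) (_ : MonoidAlgebra (kM M) G) => (1 : ℂ)) hMod hχ hχ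
  rw [wstar_one hχ, classInner_irr_self] at h2
  have h3 : (N : ℝ) = ((N : ℂ) * 1).re := by simp
  rw [h3, h2, ← Complex.re_sum, Finset.sum_congr rfl fun i _ => h1 i, ← Finset.mul_sum,
    Finset.sum_comm]
  rw [← mul_assoc, mul_comm (N : ℂ), mul_assoc, Finset.mul_sum (a := (N : ℂ))]
  have hG : ((Nat.card G : ℂ)⁻¹) = (((Nat.card G : ℝ)⁻¹ : ℝ) : ℂ) := by push_cast; rfl
  rw [hG, Complex.re_ofReal_mul, Complex.re_ofReal_mul]
  apply mul_le_mul_of_nonneg_left _ (by positivity)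
  rw [Complex.re_sum, Complex.re_sum]
  apply Finset.sum_le_sum
  intro v _
  rw [Finset.sum_comm, Finset.mul_sum, Complex.re_sum, Complex.re_sum]
  apply Finset.sum_le_sum
  intro e' _
  rw [← Finset.sum_mul]
  have h4 : ∑ i ∈ s, wOrb (x i) (F i) v (EB M _ e') = (((s.filter (fun i => ∃ g : G,
      v = g * x i * g⁻¹ ∧ EB M _ e' = Blk.cj g (F i))).card : ℝ) : ℂ) := by
    unfold wOrb
    rw [Finset.sum_ite, Finset.sum_const_zero, add_zero, Finset.sum_const, nsmul_eq_mul, mul_one]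
    simp
  rw [h4]
  have h5 : ((N : ℂ) * (1 * ((Nat.card (Subgroup.centralizer (Subgroup.zpowers v : Set G)) : ℂ) *
      sc p v e' (χ : G → ℂ) (χ : G → ℂ)))) = (((N : ℝ) : ℂ) *
      ((Nat.card (Subgroup.centralizer (Subgroup.zpowers v : Set G)) : ℂ) *
      sc p v e' (χ : G → ℂ) (χ : G → ℂ))) := by push_cast; ring
  rw [h5]
  have h6 := sc_self_re_nonneg (p := p) v e' (χ : G → ℂ)
  have h7 := ofReal_sc_self_re (p := p) v e' (χ : G → ℂ)
  have h8 : ((Nat.card (Subgroup.centralizer (Subgroup.zpowers v : Set G)) : ℂ) *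
      sc p v e' (χ : G → ℂ) (χ : G → ℂ)) =
      (((Nat.card (Subgroup.centralizer (Subgroup.zpowers v : Set G)) : ℝ) *
        (sc p v e' (χ : G → ℂ) (χ : G → ℂ)).re : ℝ) : ℂ) := by
    rw [Complex.ofReal_mul, h7]
    push_cast
    rfl
  rw [h8]
  apply re_mul_nonneg_aux
  · exact_mod_cast hN v _
  · rw [Complex.ofReal_re]; positivity
  · rw [Complex.ofReal_re]

/-- **Heights, inertial index and centre of the defect group** -/
theorem height_center (hMod : IsPModular p M) (hB : IsPBlock M B) (he : MMax p P E)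
    (hb : MPairOf p (Blk.eB M B) P E) {H T : Subgroup G}
    (hT : ∀ t ∈ stab (Subgroup.normalizer (P : Set G)) E, t ∈ T)
    (hH : ∀ z ∈ P ⊓ Subgroup.centralizer (P : Set G), ∀ h ∈ H, h * z * h⁻¹ = z)
    {χ : IrrCharacter G} (hχ : χ ∈ B) {c : ℕ}
    (hc : Nat.card ↥(P ⊓ Subgroup.centralizer (P : Set G)) = p ^ c) {n : ℕ}
    (hn : H.relIndex T < p ^ (n + 1)) :
    blockHeight p B (χ : G → ℂ) + c ≤ n + blockDefect p B := by
  classical
  haveI := charP_kM hMod
  have hχc := irr_isClassFunction χ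
  set Z := P ⊓ Subgroup.centralizer (P : Set G) with hZ
  have key : ∀ z : Z, ∃ f : Set (IrrCharacter (Subgroup.centralizer
      (Subgroup.zpowers (z : G) : Set G))),
      MLe p (Subgroup.zpowers (z : G)) (EB M _ f) P E ∧
      IsInducedBlock M (Subgroup.centralizer (Subgroup.zpowers (z : G) : Set G)) f B ∧
      ∃ k : ℕ, orderOf (z : G) = p ^ k := fun z => exists_below hMod hB he hb z.2.1
  choose f hf1 hf2 hf3 using key
  have hPz : ∀ z : Z, P ≤ Subgroup.centralizer (Subgroup.zpowers (z : G) : Set G) := by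
    intro z x hx
    rw [mem_cent_zpowers]
    exact (Subgroup.mem_centralizer_iff.mp z.2.2 x hx).symm
  have hfd : ∀ z : Z, blockDefect p (f z) = blockDefect p B := fun z =>
    blockDefect_of_central hMod hB he hb (hf2 z).1 (hf1 z) (hPz z)
  -- the contributions
  let S : Z → ℂ := fun z =>
    classInner (wstar p (wOrb (z : G) (EB M _ (f z))) (χ : G → ℂ)) (χ : G → ℂ)
  haveI : ∀ z : Z, Fintype (Subgroup.centralizer (Subgroup.zpowers (z : G) : Set G)) := fun z =>
    Fintype.ofFinite _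
  have hS : ∀ z : Z, S z = sc p (z : G) (f z) (χ : G → ℂ) (χ : G → ℂ) := fun z =>
    classInner_wOrb hMod (hf3 z) (hf2 z).1 hχc hχc
  have hSre : ∀ z : Z, (((S z).re : ℝ) : ℂ) = S z := by
    intro z
    rw [hS]
    exact ofReal_sc_self_re _ _ _
  have hSpos : ∀ z : Z, 0 < (S z).re := by
    intro z
    rw [hS]
    obtain ⟨ψ, hψ, h0⟩ := exists_height_zero hMod hB
    exact sc_self_ne_zero (sc_ne_zero_of_major' hMod (hf3 z) (hf2 z) (hfd z) hχ hψ h0)
  -- upper bound
  have hupper : ∑ z : Z, (S z).re ≤ (H.relIndex T : ℕ) := by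
    refine sum_contrib_le hMod χ Finset.univ (fun z : Z => (z : G)) (fun z : Z => EB M _ (f z))
      (H.relIndex T) ?_
    intro v F
    rcases Finset.eq_empty_or_nonempty (Finset.univ.filter (fun z : Z => ∃ g : G,
      v = g * (z : G) * g⁻¹ ∧ F = Blk.cj g (EB M _ (f z)))) with h0 | ⟨z₀, hz₀⟩
    · rw [h0, Finset.card_empty]; exact Nat.zero_le _
    · rw [Finset.mem_filter] at hz₀
      obtain ⟨-, g₀, hg1, hg2⟩ := hz₀
      have h1 : ((Finset.univ.filter (fun z : Z => ∃ g : G,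
          v = g * (z : G) * g⁻¹ ∧ F = Blk.cj g (EB M _ (f z)))).map
            ⟨fun z : Z => (z : G), Subtype.val_injective⟩).card ≤ H.relIndex T := by
        refine card_le_relIndex (z₀ := (z₀ : G)) (fun h hh => hH _ z₀.2 h hh) _ ?_
        intro y hy
        rw [Finset.mem_map] at hy
        obtain ⟨z, hz, rfl⟩ := hy
        rw [Finset.mem_filter] at hz
        obtain ⟨-, g, hg3, hg4⟩ := hz
        obtain ⟨t, ht, h2⟩ := exists_stab_of_central he (g := g⁻¹ * g₀) z₀.2 z.2 (hf1 z₀) (hf1 z)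
          (by
            have : (z : G) = g⁻¹ * v * g := by rw [hg3]; group
            rw [this, hg1]; group)
          (by
            rw [← Blk.cj_cj, ← hg2, hg4, Blk.cj_cj, inv_mul_cancel, Blk.cj_one_left])
        exact ⟨t, hT t ht, h2⟩
      rwa [Finset.card_map] at h1
  -- lower bound
  obtain ⟨a, ha⟩ := IsPGroup.iff_card.mp he.1.isPGroup
  haveI : NeZero (p ^ a) := ⟨(pow_pos hp.out.pos _).ne'⟩
  have hord : ∀ z : Z, orderOf (z : G) ∣ p ^ a := by
    intro z
    rw [← ha]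
    have := orderOf_dvd_natCard (⟨(z : G), z.2.1⟩ : P)
    rwa [← Subgroup.orderOf_coe] at this
  have hZP : ∀ z : Z, ∀ k : ℕ, (z : G) ^ k ∈ Z := fun z k => Z.pow_mem z.2 k
  have hgal : ∀ (u : (ZMod (p ^ a))ˣ) (z : Z),
      autPow u (S z) = S ⟨(z : G) ^ (u : ZMod (p ^ a)).val, hZP z _⟩ := by
    intro u z
    have hcop : Nat.Coprime (orderOf (z : G)) (u : ZMod (p ^ a)).val := by
      refine Nat.Coprime.coprime_dvd_left (hord z) ?_
      exact (ZMod.val_coe_unit_coprime u).symm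
    have hzp := zpowers_pow_of_coprime hcop
    rw [hS, map_sc (centralizer_zpowers_eq _) (hord z) (isPow_autPow u)]
    have h1 : Subgroup.centralizer (Subgroup.zpowers (z : G) : Set G) =
        Subgroup.centralizer (Subgroup.zpowers ((z : G) ^ (u : ZMod (p ^ a)).val) : Set G) := by
      rw [hzp]
    rw [← classInner_wOrb' hMod h1 (hf3 ⟨(z : G) ^ (u : ZMod (p ^ a)).val, hZP z _⟩) (hf2 z).1
      hχc hχc]
    change classInner (wstar p (wOrb _ _) _) _ = classInner (wstar p (wOrb _ _) _) _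
    have h2 : EB M _ (f z) = EB M _ (f ⟨(z : G) ^ (u : ZMod (p ^ a)).val, hZP z _⟩) := by
      refine MLe.unique he.1 (Subgroup.zpowers (z : G)) _ _ (hf1 z) ?_
      have aux : ∀ (R R' : Subgroup G) (F : MonoidAlgebra (kM M) G), R = R' →
          MLe p R F P E → MLe p R' F P E := by
        rintro R _ F rfl h
        exact h
      exact aux _ _ _ hzp (hf1 ⟨(z : G) ^ (u : ZMod (p ^ a)).val, hZP z _⟩)
    rw [h2]
  obtain ⟨d, hd⟩ : ∃ d, d = blockDefect p B := ⟨_, rfl⟩
  obtain ⟨h, hh⟩ : ∃ h, h = blockHeight p B (χ : G → ℂ) := ⟨_, rfl⟩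
  rw [← hd, ← hh]
  have hp0 : (p : ℂ) ≠ 0 := by exact_mod_cast hp.out.ne_zero
  have hp0' : (0 : ℝ) < (p : ℝ) := by exact_mod_cast hp.out.pos
  have hmain : ∀ z : Z, (Fintype.card (ZMod (p ^ a))ˣ : ℝ) ≤
      ∑ u : (ZMod (p ^ a))ˣ, ((p : ℝ) ^ d / (p : ℝ) ^ h) *
        (S ⟨(z : G) ^ (u : ZMod (p ^ a)).val, hZP z _⟩).re := by
    intro z
    have hint := isIntegral_contrib_div hMod (hf3 z) (hf2 z).1 (hfd z) hχ χ
    rw [← hd, ← hh, ← hS] at hint
    refine card_le_sum_autPow (w := (p : ℂ) ^ d * S z / (p : ℂ) ^ h) (N := p ^ h)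
      (pow_pos hp.out.pos _).ne' ?_ hint _ ?_ ?_
    · have h1 : ((p ^ h : ℕ) : ℂ) * ((p : ℂ) ^ d * S z / (p : ℂ) ^ h) = (p : ℂ) ^ d * S z := by
        push_cast
        field_simp
      rw [h1, hS, hd, ← hfd z]
      exact pow_mul_sc_mem_cyc (centralizer_zpowers_eq _) (hord z) _ _ _
    · intro u
      exact mul_pos (by positivity) (hSpos _)
    · intro u
      rw [map_div₀, map_mul, map_pow, map_pow, map_natCast, hgal u z, Complex.ofReal_mul, hSre]
      push_cast
      ring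
  have hbij : ∀ u : (ZMod (p ^ a))ˣ, ∑ z : Z, (S ⟨(z : G) ^ (u : ZMod (p ^ a)).val, hZP z _⟩).re =
      ∑ z : Z, (S z).re := by
    intro u
    have hinj : Function.Injective (fun z : Z =>
        (⟨(z : G) ^ (u : ZMod (p ^ a)).val, hZP z _⟩ : Z)) := by
      intro z z' hzz
      have h1 : (z : G) ^ (u : ZMod (p ^ a)).val = (z' : G) ^ (u : ZMod (p ^ a)).val :=
        congrArg Subtype.val hzz
      have h2 : ∀ z : Z, ((z : G) ^ (u : ZMod (p ^ a)).val) ^ (↑u⁻¹ : ZMod (p ^ a)).val = z := by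
        intro z
        rw [← pow_mul]
        have h3 : (u : ZMod (p ^ a)).val * (↑u⁻¹ : ZMod (p ^ a)).val ≡ 1 [MOD p ^ a] := by
          rw [← ZMod.natCast_eq_natCast_iff]
          push_cast
          rw [ZMod.natCast_zmod_val, ZMod.natCast_zmod_val]
          simp
        have h4 : (u : ZMod (p ^ a)).val * (↑u⁻¹ : ZMod (p ^ a)).val ≡ 1 [MOD orderOf (z : G)] :=
          h3.of_dvd (hord z)
        have h5 := pow_eq_pow_iff_modEq.mpr h4
        rw [h5, pow_one]
      apply Subtype.ext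
      rw [← h2 z, ← h2 z', h1]
    exact Fintype.sum_bijective _ (Finite.injective_iff_bijective.mp hinj) _ _ (fun z => rfl)
  have hsum := Finset.sum_le_sum (fun z (_ : z ∈ (Finset.univ : Finset Z)) => hmain z)
  rw [Finset.sum_const, Finset.card_univ, nsmul_eq_mul, Finset.sum_comm] at hsum
  have h5 : ∑ u : (ZMod (p ^ a))ˣ, ∑ z : Z, ((p : ℝ) ^ d / (p : ℝ) ^ h) *
      (S ⟨(z : G) ^ (u : ZMod (p ^ a)).val, hZP z _⟩).re =
      (Fintype.card (ZMod (p ^ a))ˣ : ℝ) * (((p : ℝ) ^ d / (p : ℝ) ^ h) * ∑ z : Z, (S z).re) := by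
    rw [Finset.sum_congr rfl fun u _ => by rw [← Finset.mul_sum, hbij u], Finset.sum_const,
      Finset.card_univ, nsmul_eq_mul]
  rw [h5, mul_comm] at hsum
  have hcard : (0 : ℝ) < (Fintype.card (ZMod (p ^ a))ˣ : ℝ) := by
    exact_mod_cast Fintype.card_pos
  have h6 : (Fintype.card Z : ℝ) ≤ ((p : ℝ) ^ d / (p : ℝ) ^ h) * ∑ z : Z, (S z).re :=
    le_of_mul_le_mul_left hsum hcard
  rw [← Nat.card_eq_fintype_card, hc] at h6
  have h7 : ((p ^ c : ℕ) : ℝ) ≤ ((p : ℝ) ^ d / (p : ℝ) ^ h) * (H.relIndex T : ℕ) :=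
    h6.trans (mul_le_mul_of_nonneg_left hupper (by positivity))
  have h8 : (p : ℝ) ^ (c + h) < (p : ℝ) ^ (d + (n + 1)) := by
    have h9 : ((H.relIndex T : ℕ) : ℝ) < (p : ℝ) ^ (n + 1) := by exact_mod_cast hn
    push_cast at h7
    rw [div_mul_eq_mul_div, le_div_iff₀ (by positivity)] at h7
    rw [pow_add, pow_add]
    exact lt_of_le_of_lt h7 (mul_lt_mul_of_pos_left h9 (by positivity))
  have h9 : c + h < d + (n + 1) :=
    (pow_lt_pow_iff_right₀ (by exact_mod_cast hp.out.one_lt)).mp h8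
  omega

/-- the idempotent of a block of `D C_G(D)` is a block idempotent of `C_G(D)` -/
theorem isBlk_centralizer_of_sup [CharP (kM M) p] {D : Subgroup G} (hD : IsPGroup p D)
    {H : Subgroup G} (hH : H = D ⊔ Subgroup.centralizer (D : Set G))
    {ε : MonoidAlgebra (kM M) G} (hε : IsBlk H ε) :
    IsBlk (Subgroup.centralizer (D : Set G)) ε := by
  have hDH : D ≤ H := by rw [hH]; exact le_sup_left
  have hCH : Subgroup.centralizer (D : Set G) ≤ H := by rw [hH]; exact le_sup_right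
  have hHN : H ≤ Subgroup.normalizer (D : Set G) := by
    rw [hH]
    exact sup_le Subgroup.le_normalizer (centralizer_le_normalizer D)
  have h1 : br D ε = ε := br_eq_self_of_normal hDH hHN hD hε.inZ hε.idem
  have hsupp : Supp (Subgroup.centralizer (D : Set G)) ε := by
    rw [← h1]; exact supp_br D ε
  obtain ⟨e₀, he₀, h2⟩ := exists_blk_le (Subgroup.centralizer (D : Set G)) ε
    ⟨hsupp, hε.fixed.mono hCH⟩ hε.idem hε.ne_zero
  have hfix : Fixed H e₀ := by
    have h3 : H ≤ stab ⊤ e₀ := by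
      rw [hH, sup_le_iff]
      constructor
      · intro x hx
        exact mem_stab.2 ⟨Subgroup.mem_top x, he₀.supp.fixed_of_centralizer x hx⟩
      · intro x hx
        exact mem_stab.2 ⟨Subgroup.mem_top x, he₀.fixed x hx⟩
    intro x hx
    exact (mem_stab.1 (h3 hx)).2
  have h4 := he₀.of_centralizer hD hDH hCH hHN hfix
  have h5 : ε = e₀ := hε.eq_of_mul_ne_zero h4 (by rw [h2]; exact he₀.ne_zero)
  rw [h5]; exact he₀

theorem mmax_of_induced (hMod : IsPModular p M) (hB : IsPBlock M B) {D : Subgroup G}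
    (hBD : IsDefectGroup p M B D) {H : Subgroup G}
    (hH : H = D ⊔ Subgroup.centralizer (D : Set G)) {b : Set (IrrCharacter H)}
    (hind : IsInducedBlock M H b B) :
    MMax p D (EB M H b) ∧ MPairOf p (Blk.eB M B) D (EB M H b) := by
  haveI := charP_kM hMod
  have hDef := (Blk.isDefectGroup_iff hMod hB D).1 hBD
  have hDp := hDef.isPGroup
  have hDH : D ≤ H := by rw [hH]; exact le_sup_left
  have hCH : Subgroup.centralizer (D : Set G) ≤ H := by rw [hH]; exact le_sup_right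
  have hHN : H ≤ Subgroup.normalizer (D : Set G) := by
    rw [hH]
    exact sup_le Subgroup.le_normalizer (centralizer_le_normalizer D)
  have h1 := isBlk_centralizer_of_sup hDp hH (isBlk_EB (M := M) hind.1)
  have h2 := (BlkF.isInducedBlock_iff_br hMod hDp hDH hHN hCH hind.1 hB).1 hind
  have h3 : MPairOf p (Blk.eB M B) D (EB M H b) := ⟨⟨hDp, h1⟩, isBlk_eB hB, h2⟩
  exact ⟨BlkF.MPairOf.mmax h3 hDef, h3⟩

/-- stabilizers of the idempotent stabilize the block -/
theorem mem_of_stab_EB {H : Subgroup G} {b : Set (IrrCharacter H)} (hb : IsPBlock M b) {t : G}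
    (ht : t ∈ Subgroup.normalizer (H : Set G)) (hfix : Blk.cj t (EB M H b) = EB M H b)
    {θ : IrrCharacter H} (hθ : θ ∈ b) {θ' : IrrCharacter H}
    (h : ∀ h h' : H, (h' : G) = t * h * t⁻¹ → (θ' : H → ℂ) h' = (θ : H → ℂ) h) : θ' ∈ b := by
  obtain ⟨-, h1⟩ := (stabilizesBlock_iff hb t).2 ⟨ht, hfix⟩
  obtain ⟨χ', hχ', h2⟩ := h1 θ hθ
  have h3 : θ' = χ' := by
    apply Subtype.ext
    funext y
    have hy : t⁻¹ * (y : G) * t ∈ H := by
      have := (Subgroup.mem_normalizer_iff.mp ((Subgroup.normalizer (H : Set G)).inv_mem ht)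
        (y : G)).mp y.2
      simpa using this
    have h4 : (y : G) = t * ((⟨t⁻¹ * (y : G) * t, hy⟩ : H) : G) * t⁻¹ := by
      change (y : G) = t * (t⁻¹ * (y : G) * t) * t⁻¹
      group
    rw [h _ _ h4]
    exact (h2 _ _ h4).symm
  rw [h3]; exact hχ'

end Main

end Cfsg.Agent.BlkInd
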