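import Mathlib
import Cfsg.Prelude.Def_Blocks
import Cfsg.Agent.BlkInd.ThirdMain
import Cfsg.Agent.BlkInd.Second2
import Cfsg.Agent.BlkC.PReg
import Cfsg.Agent.Char.BrauerInduction
import Cfsg.Agent.Blk.Orth2

set_option autoImplicit false
set_option linter.style.haveILetI false
set_option linter.unusedSimpArgs false
set_option linter.unusedSectionVars false
set_option linter.unusedVariables false

/-!
# Külshammer's formula for the principal block idempotent
-/

namespace Cfsg.Agent.BlkInd

open scoped BigOperators ComplexConjugate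
open Cfsg Cfsg.Agent.CharBase Cfsg.Agent.Blk

universe u v w

section Expand

variable {G : Type u} [Group G] [Fintype G]

/-- coefficients of central elements from their central characters -/
theorem coeff_eq_sum_om [Fintype (IrrCharacter G)] {z : MonoidAlgebra ℂ G} (hz : IsCentr z) (g : G) :
    z.coeff g = (Nat.card G : ℂ)⁻¹ * ∑ χ : IrrCharacter G,
      (χ : G → ℂ) 1 * om (χ : G → ℂ) z * conj ((χ : G → ℂ) g) := by
  classical
  have hG : (Nat.card G : ℂ) ≠ 0 := by exact_mod_cast Nat.card_pos.ne'
  have h1 := classFun_apply_eq_sum (f := fun g => z.coeff g) (fun g x => hz g x) g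
  have h2 : ∀ χ : IrrCharacter G, ∃ χ' : IrrCharacter G, ∀ g, (χ' : G → ℂ) g = conj ((χ : G → ℂ) g) :=
    fun χ => ⟨⟨fun g => conj ((χ : G → ℂ) g), isIrrCharacter_conj χ.2⟩, fun g => rfl⟩
  let c : IrrCharacter G → IrrCharacter G := fun χ =>
    ⟨fun g => conj ((χ : G → ℂ) g), isIrrCharacter_conj χ.2⟩
  have hc : Function.Involutive c := by
    intro χ
    apply Subtype.ext
    ext g
    show conj (conj ((χ : G → ℂ) g)) = _
    exact Complex.conj_conj _
  rw [h1, Finset.mul_sum]
  refine Fintype.sum_equiv hc.toPerm _ _ (fun χ => ?_)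
  show classInner (fun g => z.coeff g) (χ : G → ℂ) * (χ : G → ℂ) g =
    (Nat.card G : ℂ)⁻¹ * (conj ((χ : G → ℂ) 1) * om (fun g => conj ((χ : G → ℂ) g)) z *
      conj (conj ((χ : G → ℂ) g)))
  rw [Complex.conj_conj]
  have h3 : conj ((χ : G → ℂ) 1) ≠ 0 := by
    intro h
    exact irr_one_ne_zero χ.2 (by simpa using h)
  unfold om ev classInner
  field_simp

end Expand

section PEl

variable {G : Type u} [Group G] [Fintype G] (p : ℕ) [hp : Fact p.Prime]

open Classical in
/-- The (scaled) indicator of the `p`-elements is a generalized character. -/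
theorem isGeneralizedCharacter_pElements :
    IsGeneralizedCharacter G (fun g : G => if (∃ k, orderOf g = p ^ k) then
      ((∏ q ∈ (Nat.card G).primeFactors.erase p, q ^ (Nat.card G).factorization q : ℕ) : ℂ) else 0) := by
  have h1 : ∀ s : Finset ℕ, (∀ q ∈ s, q.Prime) → IsGeneralizedCharacter G
      (fun g : G => ∏ q ∈ s, (if q ∣ orderOf g then (0 : ℂ) else
        ((q ^ (Nat.card G).factorization q : ℕ) : ℂ))) := by
    intro s hs
    induction s using Finset.induction_on with
    | empty =>
      simp only [Finset.prod_empty]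
      exact Char.BI.isGeneralizedCharacter_of_isCharacter (irr_isCharacter (oneIrr G))
    | insert q s hq ih =>
      haveI : Fact q.Prime := ⟨hs q (Finset.mem_insert_self q s)⟩
      have h2 := BlkC.pReg_isGeneralizedCharacter (G := G) q (oneIrr G)
      have h3 := Char.BI.isGeneralizedCharacter_mul h2 (ih (fun r hr => hs r (Finset.mem_insert_of_mem hr)))
      convert h3 using 1
      ext g
      rw [Finset.prod_insert hq, Pi.mul_apply]
      congr 1
      by_cases h : q ∣ orderOf g
      · rw [if_pos h, if_pos h]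
      · rw [if_neg h, if_neg h]
        show _ = _ * (1 : ℂ)
        rw [mul_one]
  have h2 := h1 ((Nat.card G).primeFactors.erase p) (fun q hq =>
    Nat.prime_of_mem_primeFactors (Finset.mem_of_mem_erase hq))
  convert h2 using 1
  ext g
  by_cases hg : ∃ k, orderOf g = p ^ k
  · rw [if_pos hg]
    push_cast
    refine Finset.prod_congr rfl (fun q hq => ?_)
    rw [if_neg]
    obtain ⟨k, hk⟩ := hg
    intro hd
    rw [hk] at hd
    have hq' := Nat.prime_of_mem_primeFactors (Finset.mem_of_mem_erase hq)
    exact (Finset.mem_erase.mp hq).1 ((Nat.prime_dvd_prime_iff_eq hq' hp.out).mp (hq'.dvd_of_dvd_pow hd))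
  · rw [if_neg hg]
    symm
    -- some other prime divides the order
    have h3 : ∃ q ∈ (Nat.card G).primeFactors.erase p, q ∣ orderOf g := by
      by_contra hne
      push Not at hne
      apply hg
      refine ⟨_, Nat.eq_prime_pow_of_unique_prime_dvd (orderOf_pos g).ne' (fun {d} hd hdv => ?_)⟩
      by_contra hdp
      refine hne d (Finset.mem_erase.mpr ⟨hdp, Nat.mem_primeFactors.mpr ⟨hd, hdv.trans (orderOf_dvd_natCard g),
        Nat.card_pos.ne'⟩⟩) hdv
    obtain ⟨q, hq, hqd⟩ := h3
    exact Finset.prod_eq_zero hq (by rw [if_pos hqd])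

open Classical in
/-- The sum of a character over all `p`-elements is divisible by the `p`-part of the group order. -/
theorem exists_sum_pElements (χ : IrrCharacter G) : ∃ n : ℤ,
    ∑ g ∈ Finset.univ.filter (fun g : G => ∃ k, orderOf g = p ^ k), (χ : G → ℂ) g =
      ((p ^ (Nat.card G).factorization p : ℕ) : ℂ) * n := by
  have hG0 : Nat.card G ≠ 0 := Nat.card_pos.ne'
  set m := ∏ q ∈ (Nat.card G).primeFactors.erase p, q ^ (Nat.card G).factorization q with hm
  have hmp : p ^ (Nat.card G).factorization p * m = Nat.card G := by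
    by_cases hpG : p ∈ (Nat.card G).primeFactors
    · rw [hm, Finset.mul_prod_erase _ (fun q => q ^ (Nat.card G).factorization q) hpG]
      exact Nat.prod_factorization_pow_eq_self hG0
    · rw [hm, Finset.erase_eq_of_notMem hpG]
      have : (Nat.card G).factorization p = 0 := by
        rw [← Finsupp.notMem_support_iff, Nat.support_factorization]; exact hpG
      rw [this, pow_zero, one_mul]
      exact Nat.prod_factorization_pow_eq_self hG0
  obtain ⟨n, hn⟩ := classInner_intCast (isGeneralizedCharacter_pElements (G := G) p)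
    (Char.BI.isGeneralizedCharacter_of_isCharacter (irr_isCharacter χ))
  refine ⟨n, ?_⟩
  have h1 : classInner (fun g : G => if (∃ k, orderOf g = p ^ k) then (m : ℂ) else 0) (χ : G → ℂ) = n := hn
  have h2 : ∑ g ∈ Finset.univ.filter (fun g : G => ∃ k, orderOf g = p ^ k), (χ : G → ℂ) g =
      ∑ g ∈ Finset.univ.filter (fun g : G => ∃ k, orderOf g = p ^ k), conj ((χ : G → ℂ) g) := by
    refine Finset.sum_bij (fun g _ => g⁻¹) ?_ ?_ ?_ ?_
    · intro g hg
      simp only [Finset.mem_filter, Finset.mem_univ, true_and] at hg ⊢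
      rwa [orderOf_inv]
    · intro a _ b _ h
      exact inv_injective h
    · intro b hb
      simp only [Finset.mem_filter, Finset.mem_univ, true_and] at hb
      exact ⟨b⁻¹, by simp only [Finset.mem_filter, Finset.mem_univ, true_and]; rwa [orderOf_inv], inv_inv b⟩
    · intro g _
      rw [irr_inv]; exact (Complex.conj_conj _).symm
  rw [h2]
  unfold classInner at h1
  have hGc : (Nat.card G : ℂ) ≠ 0 := by exact_mod_cast hG0
  have hm0 : (m : ℂ) ≠ 0 := by
    intro h
    have : m = 0 := by exact_mod_cast h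
    rw [this, mul_zero] at hmp
    exact hG0 hmp.symm
  have h3 : ∑ g : G, (if (∃ k, orderOf g = p ^ k) then (m : ℂ) else 0) * conj ((χ : G → ℂ) g) =
      (m : ℂ) * ∑ g ∈ Finset.univ.filter (fun g : G => ∃ k, orderOf g = p ^ k), conj ((χ : G → ℂ) g) := by
    rw [Finset.mul_sum, Finset.sum_filter]
    refine Finset.sum_congr rfl (fun g _ => ?_)
    split_ifs <;> simp
  rw [h3] at h1
  have h4 : (Nat.card G : ℂ) = ((p ^ (Nat.card G).factorization p : ℕ) : ℂ) * m := by
    rw [← Nat.cast_mul, hmp]
  have hpk : ((p ^ (Nat.card G).factorization p : ℕ) : ℂ) ≠ 0 := by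
    intro h
    rw [h, zero_mul] at h4
    exact hGc h4
  rw [← h1, h4]
  field_simp

end PEl

section Kuls

variable {G : Type u} [Group G] [Fintype G] {M : Ideal AlgInt} [hM : M.IsPrime] {p : ℕ} [hp : Fact p.Prime]

variable (G p) in
open Classical in
/-- the sum of all `p`-elements -/
noncomputable def pSum : MonoidAlgebra ℂ G := ga (fun g => if (∃ k, orderOf g = p ^ k) then 1 else 0)

variable (G p) in
open Classical in
/-- the sum of all `p`-regular elements -/
noncomputable def rSum : MonoidAlgebra ℂ G := ga (fun g => if p ∣ orderOf g then 0 else 1)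

theorem orderOf_conjK (g x : G) : orderOf (x * g * x⁻¹) = orderOf g := by
  have := orderOf_injective (MulAut.conj x).toMonoidHom (MulAut.conj x).injective g
  simpa using this

theorem isCentr_pSum : IsCentr (pSum G p) := by
  classical
  refine isCentr_ga (fun g x => ?_)
  rw [orderOf_conjK g x]

theorem isCentr_rSum : IsCentr (rSum G p) := by
  classical
  refine isCentr_ga (fun g x => ?_)
  rw [orderOf_conjK g x]

theorem intGA_rSum : IntGA M (rSum G p) := by
  classical
  intro g
  unfold rSum
  rw [coeff_ga]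
  split_ifs
  · exact mlr_zero
  · exact mlr_one

open Classical in
theorem om_pSum (χ : IrrCharacter G) : (χ : G → ℂ) 1 * om (χ : G → ℂ) (pSum G p) =
    ∑ g ∈ Finset.univ.filter (fun g : G => ∃ k, orderOf g = p ^ k), (χ : G → ℂ) g := by
  unfold om pSum
  rw [ev_ga, mul_div_cancel₀ _ (irr_one_ne_zero χ.2), Finset.sum_filter]
  refine Finset.sum_congr rfl (fun g _ => ?_)
  split_ifs <;> simp

/-- Elements of the radical of the centre are annihilated by the sum of the `p`-elements. -/
theorem maxGA_mul_pSum (hMod : IsPModular p M) {n : MonoidAlgebra ℂ G} (hn : IsCentr n)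
    (h : ∀ χ : IrrCharacter G, MemLocalIdeal M (om (χ : G → ℂ) n)) : MaxGA M (n * pSum G p) := by
  classical
  haveI := Fintype.ofFinite (IrrCharacter G)
  intro g
  rw [coeff_eq_sum_om (hn.mul isCentr_pSum)]
  have hG0 : Nat.card G ≠ 0 := Nat.card_pos.ne'
  have hGc : (Nat.card G : ℂ) ≠ 0 := by exact_mod_cast hG0
  set a := (Nat.card G).factorization p with ha
  have h1 : p ^ a * (Nat.card G / p ^ a) = Nat.card G := Nat.ordProj_mul_ordCompl_eq_self _ _
  have h2 : ¬ p ∣ Nat.card G / p ^ a := Nat.not_dvd_ordCompl hp.out hG0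
  have h3 : ∀ χ : IrrCharacter G, ∃ m : ℤ, (χ : G → ℂ) 1 * om (χ : G → ℂ) (n * pSum G p) *
      conj ((χ : G → ℂ) g) = ((p ^ a : ℕ) : ℂ) * (m * om (χ : G → ℂ) n * conj ((χ : G → ℂ) g)) := by
    intro χ
    obtain ⟨m, hm⟩ := exists_sum_pElements p χ
    refine ⟨m, ?_⟩
    rw [om_mul χ.2 hn]
    have := om_pSum (p := p) χ
    rw [hm] at this
    linear_combination (om (χ : G → ℂ) n * conj ((χ : G → ℂ) g)) * this
  choose m hm using h3
  rw [Finset.sum_congr rfl (fun χ _ => hm χ), ← Finset.mul_sum]
  have h4 : (Nat.card G : ℂ)⁻¹ * (((p ^ a : ℕ) : ℂ) * ∑ χ : IrrCharacter G,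
      (m χ * om (χ : G → ℂ) n * conj ((χ : G → ℂ) g))) =
      ((Nat.card G / p ^ a : ℕ) : ℂ)⁻¹ * ∑ χ : IrrCharacter G,
      (m χ * om (χ : G → ℂ) n * conj ((χ : G → ℂ) g)) := by
    have e : (Nat.card G : ℂ) = ((p ^ a : ℕ) : ℂ) * ((Nat.card G / p ^ a : ℕ) : ℂ) := by
      rw [← Nat.cast_mul, h1]
    have hpa : ((p ^ a : ℕ) : ℂ) ≠ 0 := by
      intro h0
      rw [h0, zero_mul] at e
      exact hGc e
    rw [e, mul_inv]
    field_simp
  rw [h4]
  refine mli_mul_left (mlr_natCast_inv hMod h2) (mli_sum _ _ (fun χ _ => ?_))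
  refine mli_mul_right (mli_mul_left (mlr_intCast _) (h χ)) ?_
  rw [← irr_inv]
  exact mlr_irr χ _

/-- on `p`-regular elements, multiplying the block idempotent by the sum of the `p`-elements does
nothing -/
theorem coeff_eB_mul_pSum (hMod : IsPModular p M) {B : Set (IrrCharacter G)} (hB : IsPBlock M B)
    {g : G} (hg : ¬ p ∣ orderOf g) : (eB B * pSum G p).coeff g = blockCoeff B g := by
  classical
  haveI := Fintype.ofFinite (IrrCharacter G)
  rw [coeff_eq_sum_om ((isCentr_eB B).mul isCentr_pSum), blockCoeff_eq_sum]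
  congr 1
  have h1 : ∀ χ : IrrCharacter G, (χ : G → ℂ) 1 * om (χ : G → ℂ) (eB B * pSum G p) * conj ((χ : G → ℂ) g) =
      ∑ x ∈ Finset.univ.filter (fun x : G => ∃ k, orderOf x = p ^ k),
        (if χ ∈ B then (χ : G → ℂ) x * conj ((χ : G → ℂ) g) else 0) := by
    intro χ
    rw [om_mul χ.2 (isCentr_eB B), om_eB]
    split_ifs with h
    · rw [one_mul, om_pSum, Finset.sum_mul]
    · rw [zero_mul, mul_zero, zero_mul, Finset.sum_const_zero]
  rw [Finset.sum_congr rfl (fun χ _ => h1 χ), Finset.sum_comm]
  have h2 : ∀ x : G, ∑ χ : IrrCharacter G, (if χ ∈ B then (χ : G → ℂ) x * conj ((χ : G → ℂ) g) else 0) =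
      blockKernel B x g := by
    intro x
    unfold blockKernel
    rw [finsum_mem_eq_sum_ite]
  rw [Finset.sum_congr rfl (fun x _ => h2 x), Finset.sum_eq_single 1]
  · unfold blockKernel
    rw [finsum_mem_eq_sum_ite]
  · intro x hx hx1
    simp only [Finset.mem_filter, Finset.mem_univ, true_and] at hx
    obtain ⟨k, hk⟩ := hx
    have hpx : p ∣ orderOf x := by
      rw [hk]
      cases k with
      | zero => rw [pow_zero] at hk; exact absurd (orderOf_eq_one_iff.mp hk) hx1
      | succ k => exact dvd_pow_self p (Nat.succ_ne_zero k)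
    rw [← conj_blockKernel, blockKernel_eq_zero hMod hB hg hpx, map_zero]
  · intro h
    exact absurd (by simp only [Finset.mem_filter, Finset.mem_univ, true_and]; exact ⟨0, by simp⟩) h

open Classical in
theorem om_rSum (χ : IrrCharacter G) :
    om (χ : G → ℂ) (rSum G p) = BlkC.Lam p (χ : G → ℂ) (oneIrr G : G → ℂ) := by
  unfold om ev BlkC.Lam omega rSum
  congr 1
  refine Finset.sum_congr rfl (fun g _ => ?_)
  rw [coeff_ga]
  unfold BlkC.regConj
  by_cases h : p ∣ orderOf g
  · rw [if_pos h, if_pos h]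
  · rw [if_neg h, if_neg h]
    show _ = conj (1 : ℂ) * _
    rw [map_one]

open Classical in
theorem om_one_rSum : om (oneIrr G : G → ℂ) (rSum G p) =
    ((Finset.univ.filter (fun g : G => ¬ p ∣ orderOf g)).card : ℂ) := by
  unfold om rSum
  rw [ev_ga]
  show (∑ g : G, (if p ∣ orderOf g then (0 : ℂ) else 1) * 1) / 1 = _
  rw [div_one, Finset.card_filter, Nat.cast_sum]
  refine Finset.sum_congr rfl (fun g _ => ?_)
  by_cases h : p ∣ orderOf g
  · simp [h]
  · simp [h]

open Classical in
/-- The number of `p`-regular elements is prime to `p`. -/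
theorem not_dvd_card_regular (hMod : IsPModular p M) :
    ¬ p ∣ (Finset.univ.filter (fun g : G => ¬ p ∣ orderOf g)).card := by
  have hB : IsPBlock M (principalBlock M G) := isPBlock_principalBlock
  have h1 : ¬ MemLocalIdeal M (BlkC.Lam p (oneIrr G : G → ℂ) (oneIrr G : G → ℂ)) := by
    rw [BlkC.not_mli_Lam_iff hMod hB oneIrr_mem_principalBlock oneIrr_mem_principalBlock,
      ← BlkC.height_eq_zero_iff oneIrr_mem_principalBlock]
    exact principal_height_zero G
  rw [← om_rSum, om_one_rSum, mli_natCast_iff hMod] at h1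
  exact h1

open Classical in
/-- **Külshammer's formula** -/
theorem kulshammer (hMod : IsPModular p M) {g : G} (hg : ¬ p ∣ orderOf g) :
    MemLocalIdeal M (blockCoeff (principalBlock M G) g - (pSum G p * rSum G p).coeff g /
      ((Finset.univ.filter (fun g : G => ¬ p ∣ orderOf g)).card : ℂ)) := by
  set R := (Finset.univ.filter (fun g : G => ¬ p ∣ orderOf g)).card with hR
  have hB : IsPBlock M (principalBlock M G) := isPBlock_principalBlock
  have hRp := not_dvd_card_regular (G := G) hMod
  have hR0 : (R : ℂ) ≠ 0 := by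
    intro h
    have : R = 0 := by exact_mod_cast h
    rw [← hR, this] at hRp
    exact hRp (dvd_zero p)
  obtain ⟨n, hn⟩ : ∃ n, n = rSum G p - (R : ℂ) • eB (principalBlock M G) := ⟨_, rfl⟩
  have hnc : IsCentr n := by rw [hn]; exact isCentr_rSum.sub ((isCentr_eB _).smul _)
  have hnm : ∀ χ : IrrCharacter G, MemLocalIdeal M (om (χ : G → ℂ) n) := by
    intro χ
    rw [hn, om_sub, om_smul]
    by_cases hχ : χ ∈ principalBlock M G
    · have h5 : SameBlock M (χ : G → ℂ) (oneIrr G : G → ℂ) :=
        sameBlock_symm (show SameBlock M (oneIrr G : G → ℂ) (χ : G → ℂ) from hχ)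
      have h6 := mli_om_sub (χ := χ) (ψ := oneIrr G) h5 (isCentr_rSum (G := G) (p := p)) intGA_rSum
      rw [om_one_rSum] at h6
      rw [om_eB_of_mem hχ, mul_one]
      exact h6
    · rw [om_eB_of_not_mem hχ, mul_zero, sub_zero, om_rSum]
      have : ¬ SameBlock M (χ : G → ℂ) (oneIrr G : G → ℂ) := fun h => hχ (sameBlock_symm h)
      rw [Lam_eq_zero_of_not_sameBlock hMod this]
      exact mli_zero
  have h1 := maxGA_mul_pSum hMod hnc hnm g
  have h2 : (pSum G p * rSum G p).coeff g =
      (n * pSum G p).coeff g + R * blockCoeff (principalBlock M G) g := by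
    have e0 : rSum G p = n + (R : ℂ) • eB (principalBlock M G) := by
      rw [hn]; exact (sub_add_cancel _ _).symm
    have e : pSum G p * rSum G p = n * pSum G p + (R : ℂ) • (eB (principalBlock M G) * pSum G p) := by
      rw [(isCentr_pSum (G := G) (p := p)).comm (rSum G p)]
      conv_lhs => rw [e0]
      rw [add_mul, smul_mul_assoc]
    rw [e, coeff_add', coeff_smul', coeff_eB_mul_pSum hMod hB hg]
  rw [h2]
  have h3 : blockCoeff (principalBlock M G) g - ((n * pSum G p).coeff g +
      R * blockCoeff (principalBlock M G) g) / (R : ℂ) = (R : ℂ)⁻¹ * (-(n * pSum G p).coeff g) := by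
    field_simp
    ring
  rw [h3]
  exact mli_mul_left (mlr_natCast_inv hMod hRp) (mli_neg h1)

end Kuls

end Cfsg.Agent.BlkInd
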