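import Mathlib
import Cfsg.Agent.BlkInd.CoverC
import Cfsg.Agent.BlkC.Principal
import Cfsg.Agent.Transfer.Fusion
import Cfsg.Agent.H63.PLen
import Cfsg.Agent.BG.Sec10c
import Cfsg.Agent.H79.Columns
import Cfsg.Agent.H74.Prin2
import Cfsg.Agent.H75.ItoConv

set_option autoImplicit false
set_option linter.style.haveILetI false
set_option linter.unusedSimpArgs false
set_option linter.unusedSectionVars false
set_option linter.unusedVariables false

/-!
# Groups of `p`-length one and the principal block (Isaacs–Smith)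
-/

namespace Cfsg.Agent.BlkInd

open scoped BigOperators ComplexConjugate
open Cfsg Cfsg.Agent.CharBase Cfsg.Agent.Blk Cfsg.Agent.BlkC

universe u v w

section Ext

variable {S : Type u} [Group S] [Fintype S]

/-- a character of degree `λ(1)` containing the irreducible `λ` is `λ`. -/
theorem eq_of_constituent_of_degree {θ : S → ℂ} (hθ : IsCharacter S θ) (lam : IrrCharacter S)
    (h1 : θ 1 = (lam : S → ℂ) 1) (h2 : classInner θ (lam : S → ℂ) ≠ 0) : θ = (lam : S → ℂ) := by
  classical
  haveI := Fintype.ofFinite (IrrCharacter S)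
  choose m hm using fun η : IrrCharacter S => classInner_natCast hθ (irr_isCharacter η)
  have hexp := classFun_eq_sum (isClassFunction_of_isCharacter hθ)
  have hdeg : ∑ η : IrrCharacter S, m η * charDegree (η : S → ℂ) = charDegree (lam : S → ℂ) := by
    have := congrFun hexp 1
    rw [Finset.sum_apply, h1, charDegree_spec lam] at this
    have h3 : ∀ η : IrrCharacter S, (classInner θ (η : S → ℂ) • (η : S → ℂ)) 1 =
        ((m η * charDegree (η : S → ℂ) : ℕ) : ℂ) := by
      intro η
      rw [Pi.smul_apply, smul_eq_mul, hm, charDegree_spec η]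
      push_cast; rfl
    rw [Finset.sum_congr rfl (fun η _ => h3 η)] at this
    exact_mod_cast this.symm
  have hml : 1 ≤ m lam := by
    rw [Nat.one_le_iff_ne_zero]
    intro h0
    apply h2
    rw [hm, h0, Nat.cast_zero]
  rw [← Finset.add_sum_erase Finset.univ _ (Finset.mem_univ lam)] at hdeg
  have hd := charDegree_pos lam
  have h4 : m lam = 1 ∧ ∑ η ∈ Finset.univ.erase lam, m η * charDegree (η : S → ℂ) = 0 := by
    have h5 : charDegree (lam : S → ℂ) ≤ m lam * charDegree (lam : S → ℂ) := Nat.le_mul_of_pos_left _ hml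
    have h6 : ∑ η ∈ Finset.univ.erase lam, m η * charDegree (η : S → ℂ) = 0 := by omega
    refine ⟨?_, h6⟩
    rw [h6, add_zero] at hdeg
    exact Nat.eq_of_mul_eq_mul_right hd (by rw [hdeg, one_mul])
  rw [hexp, ← Finset.add_sum_erase Finset.univ _ (Finset.mem_univ lam), hm, h4.1, Nat.cast_one, one_smul]
  convert add_zero _
  refine Finset.sum_eq_zero (fun η hη => ?_)
  have := (Finset.sum_eq_zero_iff.mp h4.2) η hη
  rcases Nat.mul_eq_zero.mp this with h | h
  · rw [hm, h, Nat.cast_zero, zero_smul]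
  · exact absurd h (charDegree_pos η).ne'

end Ext

section NPC

variable {H : Type u} [Group H] [Fintype H] {M : Ideal AlgInt} [hM : M.IsPrime] {p : ℕ} [hp : Fact p.Prime]

theorem hasNPC_of_principal (hMod : IsPModular p M) (P : Sylow p H)
    (S : Subgroup H) (hSP : S = (P : Subgroup H)) [Fintype S]
    (h' : ∀ θ ∈ principalBlock M H, ∑ s : S, (θ : H → ℂ) s ≠ 0 → θ = oneIrr H) :
    HasNormalPComplement p H := by
  classical
  have hSp : IsPGroup p S := by rw [hSP]; exact P.isPGroup'
  set B := principalBlock M H with hBdef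
  have hB : IsPBlock M B := ⟨oneIrr H, rfl⟩
  have h1B : oneIrr H ∈ B := one_mem_principal
  have hS0 : (Nat.card S : ℂ) ≠ 0 := by exact_mod_cast Nat.card_pos.ne'
  have hH0 : (Nat.card H : ℂ) ≠ 0 := by exact_mod_cast Nat.card_pos.ne'
  have hres : ∀ θ : IrrCharacter H, IsCharacter S (fun s : S => (θ : H → ℂ) s) :=
    fun θ => isCharacter_restrict (irr_isCharacter θ) S
  choose m hm using fun (lam : IrrCharacter S) (θ : IrrCharacter H) =>
    classInner_natCast (hres θ) (irr_isCharacter lam)
  -- the fundamental identity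
  have key : ∀ lam : IrrCharacter S,
      ∑ θ ∈ Bfin B, (charDegree (θ : H → ℂ) : ℂ) * (m lam θ : ℂ) =
        ((Nat.card H : ℂ) * (Nat.card S : ℂ)⁻¹ * blockCoeff B 1) * (charDegree (lam : S → ℂ) : ℂ) := by
    intro lam
    have e1 : ∑ u : S, blockCoeff B (u : H) * (lam : S → ℂ) u =
        blockCoeff B 1 * (charDegree (lam : S → ℂ) : ℂ) := by
      rw [Finset.sum_eq_single 1]
      · rw [charDegree_spec lam]; rfl
      · intro u _ hu
        have : blockCoeff B (u : H) = 0 := by
          refine blockCoeff_eq_zero_of_dvd hMod hB ?_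
          obtain ⟨k, hk⟩ := (IsPGroup.iff_orderOf.mp hSp) u
          rw [← Subgroup.orderOf_coe] at hk
          rw [hk]
          rcases Nat.eq_zero_or_pos k with rfl | hk0
          · rw [pow_zero, orderOf_eq_one_iff] at hk
            exact absurd (Subtype.ext hk) hu
          · exact dvd_pow_self p hk0.ne'
        rw [this, zero_mul]
      · intro h; exact absurd (Finset.mem_univ _) h
    have e2 : ∀ u : S, blockCoeff B (u : H) * (lam : S → ℂ) u =
        (Nat.card H : ℂ)⁻¹ * ∑ θ ∈ Bfin B, (θ : H → ℂ) 1 * (conj ((θ : H → ℂ) u) * (lam : S → ℂ) u) := by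
      intro u
      unfold blockCoeff
      rw [finsum_mem_eq_Bfin, mul_assoc, Finset.sum_mul]
      congr 1
      exact Finset.sum_congr rfl (fun θ _ => by ring)
    rw [Finset.sum_congr rfl (fun u _ => e2 u), ← Finset.mul_sum, Finset.sum_comm] at e1
    have e3 : ∀ θ ∈ Bfin B, ∑ u : S, (θ : H → ℂ) 1 * (conj ((θ : H → ℂ) u) * (lam : S → ℂ) u) =
        (Nat.card S : ℂ) * ((charDegree (θ : H → ℂ) : ℂ) * (m lam θ : ℂ)) := by
      intro θ _
      rw [← Finset.mul_sum]
      have e4 : ∑ u : S, conj ((θ : H → ℂ) u) * (lam : S → ℂ) u =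
          (Nat.card S : ℂ) * (m lam θ : ℂ) := by
        have e5 := congrArg conj (hm lam θ)
        rw [Complex.conj_natCast] at e5
        rw [← e5, CharBase.classInner_conj_symm]
        unfold classInner
        rw [← mul_assoc, mul_inv_cancel₀ hS0, one_mul]
        exact Finset.sum_congr rfl (fun u _ => mul_comm _ _)
      rw [e4, charDegree_spec θ]; ring
    rw [Finset.sum_congr rfl e3, ← Finset.mul_sum] at e1
    have e6 : ∑ θ ∈ Bfin B, (charDegree (θ : H → ℂ) : ℂ) * (m lam θ : ℂ) =
        (Nat.card H : ℂ) * (Nat.card S : ℂ)⁻¹ * ((Nat.card H : ℂ)⁻¹ *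
          ((Nat.card S : ℂ) * ∑ θ ∈ Bfin B, (charDegree (θ : H → ℂ) : ℂ) * (m lam θ : ℂ))) := by
      field_simp
    rw [e6, e1]; ring
  -- the constant is `1`
  have hone : (Nat.card H : ℂ) * (Nat.card S : ℂ)⁻¹ * blockCoeff B 1 = 1 := by
    have h1 := key (oneIrr S)
    have hd1 : charDegree ((oneIrr S : IrrCharacter S) : S → ℂ) = 1 := by
      have := charDegree_spec (oneIrr S)
      rw [oneIrr_apply] at this
      exact_mod_cast this.symm
    rw [hd1, Nat.cast_one, mul_one] at h1
    rw [← h1, Finset.sum_eq_single (oneIrr H)]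
    · have hd2 : charDegree ((oneIrr H : IrrCharacter H) : H → ℂ) = 1 := by
        have := charDegree_spec (oneIrr H)
        rw [oneIrr_apply] at this
        exact_mod_cast this.symm
      rw [← hm (oneIrr S) (oneIrr H), hd2, Nat.cast_one, one_mul]
      have : (fun s : S => ((oneIrr H : IrrCharacter H) : H → ℂ) s) =
        ((oneIrr S : IrrCharacter S) : S → ℂ) := rfl
      rw [this, classInner_irr_self]
    · intro θ hθ hne
      have h2 : (m (oneIrr S) θ : ℂ) = 0 := by
        by_contra h3
        refine hne (h' θ (mem_Bfin.mp hθ) ?_)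
        intro h4
        apply h3
        rw [← hm]
        unfold classInner
        have h5 : ∑ g : S, (θ : H → ℂ) g * conj (((oneIrr S : IrrCharacter S) : S → ℂ) g) = 0 := by
          rw [← h4]
          exact Finset.sum_congr rfl (fun g _ => by rw [oneIrr_apply, map_one, mul_one])
        rw [h5, mul_zero]
      rw [h2, mul_zero]
    · intro h2; exact absurd (mem_Bfin.mpr h1B) h2
  -- extension of the characters of `S`
  have hext : ∀ lam : IrrCharacter S, ∃ θ : IrrCharacter H,
      (fun s : S => (θ : H → ℂ) s) = (lam : S → ℂ) := by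
    intro lam
    have h1 := key lam
    rw [hone, one_mul] at h1
    have h2 : ∑ θ ∈ Bfin B, charDegree (θ : H → ℂ) * m lam θ = charDegree (lam : S → ℂ) := by
      exact_mod_cast h1
    obtain ⟨θ, hθ, h3⟩ : ∃ θ ∈ Bfin B, charDegree (θ : H → ℂ) * m lam θ ≠ 0 := by
      by_contra hne
      push Not at hne
      rw [Finset.sum_eq_zero hne] at h2
      exact (charDegree_pos lam).ne h2
    have hmθ : m lam θ ≠ 0 := fun h0 => h3 (by rw [h0, mul_zero])
    have h4 : charDegree (θ : H → ℂ) * m lam θ ≤ charDegree (lam : S → ℂ) := by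
      rw [← h2]
      exact Finset.single_le_sum (f := fun θ : IrrCharacter H => charDegree (θ : H → ℂ) * m lam θ) (fun _ _ => Nat.zero_le _) hθ
    have h5 : charDegree (θ : H → ℂ) ≤ charDegree (lam : S → ℂ) :=
      le_trans (Nat.le_mul_of_pos_right _ (Nat.pos_of_ne_zero hmθ)) h4
    -- `λ(1) ≤ θ(1)`
    haveI := Fintype.ofFinite (IrrCharacter S)
    have h6 : charDegree (lam : S → ℂ) ≤ charDegree (θ : H → ℂ) := by
      have e1 := classFun_apply_eq_sum (isClassFunction_of_isCharacter (hres θ)) 1
      have e2 : (θ : H → ℂ) 1 = ∑ η : IrrCharacter S, (m η θ : ℂ) * (charDegree (η : S → ℂ) : ℂ) := by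
        refine Eq.trans e1 ?_
        exact Finset.sum_congr rfl (fun η _ => by rw [hm, charDegree_spec η])
      rw [charDegree_spec θ] at e2
      have e3 : charDegree (θ : H → ℂ) = ∑ η : IrrCharacter S, m η θ * charDegree (η : S → ℂ) := by
        exact_mod_cast e2
      rw [e3]
      refine le_trans ?_ (Finset.single_le_sum (f := fun η : IrrCharacter S => m η θ * charDegree (η : S → ℂ))
        (fun _ _ => Nat.zero_le _) (Finset.mem_univ lam))
      exact Nat.le_mul_of_pos_left _ (Nat.pos_of_ne_zero hmθ)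
    refine ⟨θ, eq_of_constituent_of_degree (hres θ) lam ?_ ?_⟩
    · show (θ : H → ℂ) 1 = _
      rw [charDegree_spec θ, charDegree_spec lam, le_antisymm h5 h6]
    · rw [hm]; exact_mod_cast hmθ
  refine Transfer.hasNPC_of_controls_own_fusion (P := P) ?_
  rintro x hx y hy ⟨g, hg⟩
  have hx' : x ∈ S := by rw [hSP]; exact hx
  have hy' : y ∈ S := by rw [hSP]; exact hy
  have hconj : IsConj (⟨x, hx'⟩ : S) ⟨y, hy'⟩ := by
    refine H75.isConj_of_forall_char (fun lam => ?_)
    obtain ⟨θ, hθ⟩ := hext lam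
    rw [← hθ]
    show (θ : H → ℂ) x = (θ : H → ℂ) y
    rw [← hg, irr_isClassFunction θ]
  obtain ⟨z, hz⟩ := isConj_iff.mp hconj
  exact ⟨z, (SetLike.ext_iff.mp hSP (z : H)).mp z.2, congrArg Subtype.val hz⟩

end NPC

section Main

variable {G : Type u} [Group G] [Fintype G] {M : Ideal AlgInt} [hM : M.IsPrime] {p : ℕ} [hp : Fact p.Prime]

/-- irreducible character whose restriction to a normal subgroup contains the trivial character -/
theorem ker_of_constituent_one {N : Subgroup G} [hN : N.Normal] [Fintype N] (χ : IrrCharacter G)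
    (h : classInner (fun n : N => (χ : G → ℂ) n) ((oneIrr N : IrrCharacter N) : N → ℂ) ≠ 0) :
    ∀ n ∈ N, ∀ g : G, (χ : G → ℂ) (n * g) = (χ : G → ℂ) g := by
  classical
  have hom : om (χ : G → ℂ) (sumS N) ≠ 0 := by
    have e1 : om (χ : G → ℂ) (sumS N) = (Nat.card N : ℂ) *
        classInner (fun n : N => (χ : G → ℂ) n) ((oneIrr N : IrrCharacter N) : N → ℂ) / (χ : G → ℂ) 1 := by
      unfold om sumS
      rw [ev_ga]
      congr 1
      have e2 : ∑ g : G, (if g ∈ N then (1 : ℂ) else 0) * (χ : G → ℂ) g = ∑ n : N, (χ : G → ℂ) n := by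
        have e3 : ∀ g : G, (if g ∈ N then (1 : ℂ) else 0) * (χ : G → ℂ) g =
            if g ∈ N then (χ : G → ℂ) g else 0 := by
          intro g
          split_ifs
          · rw [one_mul]
          · rw [zero_mul]
        rw [Finset.sum_congr rfl (fun g _ => e3 g), ← Finset.sum_filter]
        exact (Finset.sum_subtype _ (fun x => by simp) _)
      rw [e2]
      unfold classInner
      have hN0 : (Nat.card N : ℂ) ≠ 0 := by exact_mod_cast Nat.card_pos.ne'
      rw [← mul_assoc, mul_inv_cancel₀ hN0, one_mul]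
      refine Finset.sum_congr rfl (fun n _ => ?_)
      rw [oneIrr_apply, map_one, mul_one]
    rw [e1]
    have hN0 : (Nat.card N : ℂ) ≠ 0 := by exact_mod_cast Nat.card_pos.ne'
    exact div_ne_zero (mul_ne_zero hN0 h) (irr_one_ne_zero χ.2)
  intro n hn g
  exact irr_ker_of_om_ne_zero χ.2 hom hn g

/-- the kernel of a character as a subgroup -/
theorem exists_ker (χ : IrrCharacter G) : ∃ K : Subgroup G, K.Normal ∧ ∀ g, g ∈ K ↔ (χ : G → ℂ) g = (χ : G → ℂ) 1 := by
  obtain ⟨n, ρ, hρ, h⟩ := χ.2
  refine ⟨ρ.ker, inferInstance, fun g => ?_⟩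
  rw [← h]
  exact (Cfsg.Agent.H75.rep_eq_char_one_iff ρ g).symm

/-- (⇐) -/
theorem pLength_of_restrict (hMod : IsPModular p M) (P : Sylow p G)
    (hirr : ∀ χ ∈ principalBlock M G, IsIrrCharacter ↥(Subgroup.normalizer ((P : Subgroup G) : Set G))
      (fun n : ↥(Subgroup.normalizer ((P : Subgroup G) : Set G)) => (χ : G → ℂ) n)) : PLengthLE p 1 G := by
  classical
  set N := Subgroup.normalizer ((P : Subgroup G) : Set G) with hN
  haveI := Fintype.ofFinite N
  haveI : Fintype (P : Subgroup G) := Fintype.ofFinite _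
  have hPN : (P : Subgroup G) ≤ N := Subgroup.le_normalizer
  set PN := (P : Subgroup G).subgroupOf N with hPNdef
  haveI : PN.Normal := Subgroup.normal_subgroupOf_iff_le_normalizer hPN |>.mpr le_rfl
  haveI : Fintype PN := Fintype.ofFinite _
  -- `χ ∈ B₀` with `[χ_P, 1] ≠ 0` has `P` in its kernel
  have hker : ∀ χ ∈ principalBlock M G, ∑ u : (P : Subgroup G), (χ : G → ℂ) u ≠ 0 →
      ∀ u ∈ (P : Subgroup G), (χ : G → ℂ) u = (χ : G → ℂ) 1 := by
    intro χ hχ hne u hu
    have h1 := ker_of_constituent_one (N := PN) (⟨_, hirr χ hχ⟩ : IrrCharacter N) (by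
      unfold classInner
      have hP0 : (Nat.card PN : ℂ) ≠ 0 := by exact_mod_cast Nat.card_pos.ne'
      refine mul_ne_zero (inv_ne_zero hP0) ?_
      convert hne using 1
      refine Fintype.sum_equiv (Subgroup.subgroupOfEquivOfLe hPN).toEquiv _ _ (fun x => ?_)
      rw [oneIrr_apply, map_one, mul_one]
      rfl)
    have h2 := h1 ⟨u, hPN hu⟩ (Subgroup.mem_subgroupOf.mpr hu) 1
    rw [mul_one] at h2
    exact h2
  -- the subgroup `L`
  choose K hKn hK using fun χ : IrrCharacter G => exists_ker χ
  set X : Set (IrrCharacter G) := {χ | χ ∈ principalBlock M G ∧ (P : Subgroup G) ≤ K χ} with hX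
  set L : Subgroup G := ⨅ χ ∈ X, K χ with hL
  have hLn : L.Normal := Subgroup.normal_iInf_normal (fun χ => Subgroup.normal_iInf_normal (fun _ => hKn χ))
  have hPL : (P : Subgroup G) ≤ L := le_iInf₂ (fun χ hχ => hχ.2)
  haveI := Fintype.ofFinite L
  obtain ⟨S, hS⟩ : ∃ S : Subgroup L, S = (P : Subgroup G).subgroupOf L := ⟨_, rfl⟩
  haveI : Fintype S := Fintype.ofFinite S
  have hnpc : HasNormalPComplement p L := by
    refine hasNPC_of_principal hMod (P.subtype hPL) S hS (fun θ hθ hne' => ?_)
    obtain ⟨χ, hχ, hcon⟩ := exists_over_principal hMod L hθ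
    -- `[χ_P, 1] ≠ 0`
    have hsum : ∑ u : (P : Subgroup G), (χ : G → ℂ) u ≠ 0 := by
      -- the character `χ_L` contains `θ`
      have hresL : IsCharacter L (fun l : L => (χ : G → ℂ) l) := isCharacter_restrict (irr_isCharacter χ) L
      haveI := Fintype.ofFinite (IrrCharacter L)
      choose m hm using fun η : IrrCharacter L => classInner_natCast hresL (irr_isCharacter η)
      choose k hk using fun η : IrrCharacter L => classInner_natCast
        (isCharacter_restrict (irr_isCharacter η) S) (irr_isCharacter (oneIrr S))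
      have e1 : ∑ u : (P : Subgroup G), (χ : G → ℂ) u = ∑ s : S, (χ : G → ℂ) ((s : L) : G) := by
        symm
        subst hS
        refine Fintype.sum_equiv (Subgroup.subgroupOfEquivOfLe hPL).toEquiv _ _ (fun x => ?_)
        rfl
      have e2 : ∀ l : L, (χ : G → ℂ) l = ∑ η : IrrCharacter L, (m η : ℂ) * (η : L → ℂ) l := by
        intro l
        have := classFun_apply_eq_sum (isClassFunction_of_isCharacter hresL) l
        refine Eq.trans this ?_
        exact Finset.sum_congr rfl (fun η _ => by rw [hm])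
      have hS0 : (Nat.card S : ℂ) ≠ 0 := by exact_mod_cast Nat.card_pos.ne'
      have e3 : ∀ η : IrrCharacter L, ∑ s : S, (η : L → ℂ) s = (Nat.card S : ℂ) * (k η : ℂ) := by
        intro η
        rw [← hk]
        unfold classInner
        rw [← mul_assoc, mul_inv_cancel₀ hS0, one_mul]
        refine Finset.sum_congr rfl (fun n _ => ?_)
        rw [oneIrr_apply, map_one, mul_one]
      have e5 : ∑ s : S, (χ : G → ℂ) ((s : L) : G) =
          ∑ s : S, ∑ η : IrrCharacter L, (m η : ℂ) * (η : L → ℂ) (s : L) :=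
        Finset.sum_congr rfl (fun s _ => e2 (s : L))
      rw [e1, e5, Finset.sum_comm]
      have e4 : ∀ η : IrrCharacter L, ∑ s : S, (m η : ℂ) * (η : L → ℂ) s =
          (Nat.card S : ℂ) * ((m η * k η : ℕ) : ℂ) := by
        intro η
        rw [← Finset.mul_sum, e3]; push_cast; ring
      rw [Finset.sum_congr rfl (fun η _ => e4 η), ← Finset.mul_sum]
      refine mul_ne_zero hS0 ?_
      rw [← Nat.cast_sum]
      intro h0
      have h1 : ∑ η : IrrCharacter L, m η * k η = 0 := by exact_mod_cast h0
      have h2 := (Finset.sum_eq_zero_iff.mp h1) θ (Finset.mem_univ _)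
      rcases Nat.mul_eq_zero.mp h2 with h3 | h3
      · apply hcon; rw [hm, h3, Nat.cast_zero]
      · apply hne'
        rw [e3, h3, Nat.cast_zero, mul_zero]
    have hχX : χ ∈ X := ⟨hχ, fun u hu => (hK χ u).mpr (hker χ hχ hsum u hu)⟩
    have hLK : L ≤ K χ := iInf₂_le χ hχX
    -- `χ_L = χ(1) 1_L`
    have h1 : (fun l : L => (χ : G → ℂ) l) = fun l : L => (χ : G → ℂ) 1 * ((oneIrr L : IrrCharacter L) : L → ℂ) l := by
      funext l
      rw [oneIrr_apply, mul_one]
      exact (hK χ l).mp (hLK l.2)
    by_contra hne1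
    apply hcon
    rw [h1]
    have h2 : classInner ((oneIrr L : IrrCharacter L) : L → ℂ) (θ : L → ℂ) = 0 :=
      classInner_irr_of_ne (fun h => hne1 h.symm)
    unfold classInner at h2 ⊢
    have h3 : ∑ g : L, (χ : G → ℂ) 1 * ((oneIrr L : IrrCharacter L) : L → ℂ) g * conj ((θ : L → ℂ) g) =
        (χ : G → ℂ) 1 * ∑ g : L, ((oneIrr L : IrrCharacter L) : L → ℂ) g * conj ((θ : L → ℂ) g) := by
      rw [Finset.mul_sum]
      exact Finset.sum_congr rfl (fun g _ => by ring)
    rw [h3, mul_left_comm, h2, mul_zero]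
  -- conclusion
  obtain ⟨k, hk⟩ := H74.index_pPrimeCore hnpc
  have hV := Solv.map_subtype_pPrimeCore_le p L
  set V := pPrimeCore p G with hVdef
  have hVc : (Nat.card V).Coprime p := Solv.pPrimeCore_card_coprime p
  haveI : (V ⊔ L).Normal := Subgroup.sup_normal V L
  have hcopL : L.index.Coprime p := by
    rw [Nat.coprime_comm, Nat.Prime.coprime_iff_not_dvd hp.out]
    intro hd
    have := P.not_dvd_index
    exact this (hd.trans (Subgroup.index_dvd_of_le hPL))
  refine H63.pLengthLE_iff.mpr ⟨fun n => if n = 0 then ⊥ else if n = 1 then V else if n = 2 then V ⊔ L else ⊤,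
    ⟨?_, ?_, ?_, ?_⟩, ?_, ?_⟩
  · intro n
    simp only
    split_ifs <;> infer_instance
  · apply monotone_nat_of_le_succ
    intro n
    match n with
    | 0 => simp
    | 1 => simp
    | 2 => simp
    | (n + 3) => simp
  · intro n hn
    match n with
    | 0 => simpa using hVc
    | 1 => exact absurd hn (by decide)
    | 2 =>
      simp only [OfNat.ofNat_ne_zero, if_false, OfNat.ofNat_ne_one, if_true]
      show ((V ⊔ L).relIndex ⊤).Coprime p
      rw [Subgroup.relIndex_top_right]
      exact Nat.Coprime.coprime_dvd_left (Subgroup.index_dvd_of_le le_sup_right) hcopL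
    | (n + 3) =>
      have e1 : ¬ (n + 3 = 0) := by omega
      have e2 : ¬ (n + 3 = 1) := by omega
      have e3 : ¬ (n + 3 = 2) := by omega
      have e4 : ¬ (n + 3 + 1 = 0) := by omega
      have e5 : ¬ (n + 3 + 1 = 1) := by omega
      have e6 : ¬ (n + 3 + 1 = 2) := by omega
      simp only [e1, e2, e3, e4, e5, e6, if_false]
      rw [Subgroup.relIndex_top_right, Subgroup.index_top]
      exact Nat.coprime_one_left p
  · intro n hn
    match n with
    | 0 => exact absurd (by decide) hn
    | 1 =>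
      refine ⟨k, ?_⟩
      show V.relIndex (V ⊔ L) ∣ p ^ k
      have e1 : V.relIndex (V ⊔ L) = V.relIndex L := by
        rw [sup_comm]; exact Subgroup.relIndex_sup_right L V
      rw [e1, ← hk]
      have e2 : ((pPrimeCore p L).map L.subtype).relIndex L = (pPrimeCore p L).index := by
        rw [Subgroup.relIndex]
        congr 1
        exact Subgroup.comap_map_eq_self_of_injective L.subtype_injective _
      rw [← e2]
      exact Subgroup.relIndex_dvd_of_le_left L hV
    | 2 => exact absurd (by decide) hn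
    | (n + 3) =>
      have e1 : ¬ (n + 3 = 0) := by omega
      have e2 : ¬ (n + 3 = 1) := by omega
      have e3 : ¬ (n + 3 = 2) := by omega
      have e4 : ¬ (n + 3 + 1 = 0) := by omega
      have e5 : ¬ (n + 3 + 1 = 1) := by omega
      have e6 : ¬ (n + 3 + 1 = 2) := by omega
      simp only [e1, e2, e3, e4, e5, e6, if_false]
      refine ⟨0, ?_⟩
      rw [Subgroup.relIndex_top_right, Subgroup.index_top, pow_zero]
  · rfl
  · rfl

/-- (⇒) -/
theorem restrict_of_pLength (hMod : IsPModular p M) (P : Sylow p G) (hpl : PLengthLE p 1 G)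
    (χ : IrrCharacter G) (hχ : χ ∈ principalBlock M G) :
    IsIrrCharacter ↥(Subgroup.normalizer ((P : Subgroup G) : Set G))
      (fun n : ↥(Subgroup.normalizer ((P : Subgroup G) : Set G)) => (χ : G → ℂ) n) := by
  classical
  set N := Subgroup.normalizer ((P : Subgroup G) : Set G) with hN
  set V := pPrimeCore p G with hV
  have hidx := _root_.Cfsg.Agent.BG.S10c.index_pPrimePCore_coprime hpl
  set W := pPrimePCore p G with hW
  have hVW : V ≤ W := H63.le_comap_mk' V _
  have hWn : W.Normal := inferInstanceAs ((pCore p (G ⧸ V)).comap (QuotientGroup.mk' V)).Normal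
  -- `P ≤ W`
  have hPW : (P : Subgroup G) ≤ W := by
    intro x hx
    by_contra hne
    -- the image of `x` in `G ⧸ W`
    have h1 : (QuotientGroup.mk x : G ⧸ W) ≠ 1 := fun h => hne ((QuotientGroup.eq_one_iff x).mp h)
    obtain ⟨k, hk⟩ := (IsPGroup.iff_orderOf.mp P.isPGroup') ⟨x, hx⟩
    rw [← Subgroup.orderOf_coe] at hk
    have h2 : orderOf (QuotientGroup.mk x : G ⧸ W) ∣ p ^ k := by
      have := orderOf_map_dvd (QuotientGroup.mk' W) x
      simp only at hk
      rwa [hk] at this
    have h3 : orderOf (QuotientGroup.mk x : G ⧸ W) ∣ W.index := orderOf_dvd_natCard _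
    have h4 : (p ^ k).Coprime W.index := (hidx.symm).pow_left k
    have h5 := Nat.eq_one_of_dvd_coprimes h4 h2 h3
    exact h1 (orderOf_eq_one_iff.mp h5)
  -- `W = V ⊔ P`
  have hWVP : W ≤ V ⊔ (P : Subgroup G) := by
    have e1 : (V ⊔ (P : Subgroup G)).relIndex W ∣ V.relIndex W := Subgroup.relIndex_dvd_of_le_left W le_sup_left
    have e2 : (V ⊔ (P : Subgroup G)).relIndex W ∣ (P : Subgroup G).relIndex W := Subgroup.relIndex_dvd_of_le_left W le_sup_right
    have e3 : V.relIndex W = Nat.card (pCore p (G ⧸ V)) := H63.relIndex_comap_mk' V _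
    obtain ⟨m, hm⟩ := IsPGroup.iff_card.mp (Solv.pCore_isPGroup (G := G ⧸ V) p)
    rw [e3, hm] at e1
    have e4 : ((P : Subgroup G).relIndex W).Coprime p := by
      rw [Nat.coprime_comm, Nat.Prime.coprime_iff_not_dvd hp.out]
      intro hd
      have h7 := Subgroup.relIndex_mul_index hPW
      exact P.not_dvd_index (hd.trans (Dvd.intro _ h7))
    have e5 := Nat.eq_one_of_dvd_coprimes ((e4.symm).pow_left m) e1 e2
    exact Subgroup.relIndex_eq_one.mp e5
  -- Frattini
  have hfr : V ⊔ N = ⊤ := by
    haveI := hWn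
    set PW : Sylow p W := P.subtype hPW with hPWdef
    have h1 := Sylow.normalizer_sup_eq_top' P hPW
    rw [eq_top_iff, ← h1]
    refine sup_le le_sup_right (hWVP.trans (sup_le le_sup_left (le_trans Subgroup.le_normalizer le_sup_right)))
  have hker : ∀ n ∈ V, (χ : G → ℂ) n = (χ : G → ℂ) 1 := fun n hn => H79.principal_ker hMod hχ hn
  obtain ⟨χ', hχ', hχe⟩ := H75.exists_deflate_irr V χ.2 hker
  have hsurj : Function.Surjective ((QuotientGroup.mk' V).comp N.subtype) := by
    rw [← MonoidHom.range_eq_top, MonoidHom.range_comp, Subgroup.range_subtype]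
    have h2 : (⊤ : Subgroup G).map (QuotientGroup.mk' V) = ⊤ :=
      Subgroup.map_top_of_surjective _ (QuotientGroup.mk'_surjective V)
    rw [← h2, ← hfr, Subgroup.map_sup]
    have h3 : V.map (QuotientGroup.mk' V) = ⊥ := by
      rw [Subgroup.map_eq_bot_iff, QuotientGroup.ker_mk']
    rw [h3, bot_sup_eq]
  have h4 := isIrrCharacter_comp_surjective hχ' _ hsurj
  have h5 : χ' ∘ ((QuotientGroup.mk' V).comp N.subtype) = fun n : N => (χ : G → ℂ) n := by
    funext n
    exact hχe n
  rw [h5] at h4
  exact h4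

end Main

end Cfsg.Agent.BlkInd
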