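import Cfsg.Agent.H62.PiCore
import Cfsg.Agent.H11.Hol
import Cfsg.Agent.H76.PSolvable
import Cfsg.Agent.Hall.Basic

set_option autoImplicit false
set_option linter.unusedSectionVars false

/-!
# The upper `ε, ε', ε, …`-series of a finite group (helper16)

`ε = true` stands for `p`-groups and `ε = false` for `p'`-groups.
-/

namespace Cfsg.Agent.BlkInd.Pow

open Subgroup Cfsg

universe u

/-- the set of primes `{p}` (`ε = true`) or its complement -/
def Q (p : ℕ) (ε : Bool) : Set ℕ := {q | ε = true ↔ q = p}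

theorem mem_Q_not {p q : ℕ} {ε : Bool} (h : q ∈ Q p (!ε)) : q ∉ Q p ε := by
  unfold Q at *
  simp only [Set.mem_ofPred_eq] at *
  cases ε <;> simp_all

theorem mem_Q_or (p q : ℕ) (ε : Bool) : q ∈ Q p ε ∨ q ∈ Q p (!ε) := by
  unfold Q
  simp only [Set.mem_ofPred_eq]
  cases ε <;> simp <;> tauto

/-- `O_p(G)` or `O_{p'}(G)` -/
def O (p : ℕ) (ε : Bool) (G : Type u) [Group G] : Subgroup G := piCore (Q p ε) G

instance (p : ℕ) (ε : Bool) (G : Type u) [Group G] : (O p ε G).Normal := piCore_normal _ _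

variable {p : ℕ} {ε : Bool}

theorem O_prime {G : Type u} [Group G] [Finite G] {q : ℕ} (hq : q.Prime) (h : q ∣ Nat.card (O p ε G)) : q ∈ Q p ε :=
  H62.prime_mem_of_dvd_card_piCore _ q hq h

theorem le_O {G : Type u} [Group G] {N : Subgroup G} (hN : N.Normal)
    (h : ∀ q : ℕ, q.Prime → q ∣ Nat.card N → q ∈ Q p ε) : N ≤ O p ε G := H62.le_piCore hN h

/-- the upper series -/
def U (p : ℕ) : ℕ → Bool → (G : Type u) → [Group G] → Subgroup G
  | 0, _, _, _ => ⊥
  | i + 1, ε, G, _ => (U p i (!ε) (G ⧸ O p ε G)).comap (QuotientGroup.mk' (O p ε G))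

theorem U_zero (G : Type u) [Group G] : U p 0 ε G = ⊥ := rfl

theorem mem_U_succ {i : ℕ} {G : Type u} [Group G] {x : G} :
    x ∈ U p (i + 1) ε G ↔ QuotientGroup.mk' (O p ε G) x ∈ U p i (!ε) (G ⧸ O p ε G) := Iff.rfl

theorem U_map {i : ℕ} : ∀ {ε : Bool} {G H : Type u} [Group G] [Group H] (f : G →* H), Function.Surjective f →
    ∀ {x : G}, x ∈ U p i ε G → f x ∈ U p i ε H := by
  induction i with
  | zero =>
    intro ε G H _ _ f hf x hx
    have h1 : x = 1 := hx
    rw [h1, map_one]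
    exact one_mem _
  | succ i ih =>
    intro ε G H _ _ f hf x hx
    rw [mem_U_succ] at hx ⊢
    have hle : O p ε G ≤ (O p ε H).comap f := by
      rw [← Subgroup.map_le_iff_le_comap]
      exact H62.map_piCore_le _ f hf
    have h1 := ih (QuotientGroup.map (O p ε G) (O p ε H) f hle) (by
      intro y
      obtain ⟨y, rfl⟩ := QuotientGroup.mk_surjective y
      obtain ⟨z, rfl⟩ := hf y
      exact ⟨(z : G ⧸ O p ε G), rfl⟩) hx
    exact h1

theorem U_comap {i : ℕ} : ∀ {ε : Bool} {G H : Type u} [Group G] [Group H] [Finite G] [Finite H] (f : G →* H),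
    Function.Injective f → ∀ {x : G}, f x ∈ U p i ε H → x ∈ U p i ε G := by
  induction i with
  | zero =>
    intro ε G H _ _ _ _ f hf x hx
    have h1 : f x = 1 := hx
    have h2 : x = 1 := hf (by rw [h1, map_one])
    rw [h2]
    exact one_mem _
  | succ i ih =>
    intro ε G H _ _ _ _ f hf x hx
    rw [mem_U_succ] at hx ⊢
    set E : Subgroup G := (O p ε H).comap f with hE
    have hEO : E ≤ O p ε G := by
      refine le_O inferInstance fun q hq hd => O_prime (p := p) (ε := ε) (G := H) hq (hd.trans ?_)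
      have h1 : Nat.card E = Nat.card (E.map f) := (Subgroup.card_map_of_injective hf).symm
      rw [h1]
      exact Subgroup.card_dvd_of_le (Subgroup.map_comap_le _ _)
    have h1 := ih (QuotientGroup.map E (O p ε H) f le_rfl) (by
      rw [injective_iff_map_eq_one]
      intro y hy
      obtain ⟨y, rfl⟩ := QuotientGroup.mk_surjective y
      have h2 : f y ∈ O p ε H := (QuotientGroup.eq_one_iff _).1 hy
      exact (QuotientGroup.eq_one_iff _).2 h2) (x := (x : G ⧸ E)) hx
    exact U_map (QuotientGroup.map E (O p ε G) (MonoidHom.id G) hEO) (by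
      intro y
      obtain ⟨y, rfl⟩ := QuotientGroup.mk_surjective y
      exact ⟨(y : G ⧸ E), rfl⟩) h1

theorem U_normal {i : ℕ} : ∀ {ε : Bool} {G : Type u} [Group G] [Finite G] (M : Subgroup G) [M.Normal] {x : M},
    x ∈ U p i ε M → (x : G) ∈ U p i ε G := by
  induction i with
  | zero =>
    intro ε G _ _ M _ x hx
    have h1 : x = 1 := hx
    rw [h1]
    exact one_mem _
  | succ i ih =>
    intro ε G _ _ M _ x hx
    rw [mem_U_succ] at hx ⊢
    set q := QuotientGroup.mk' (O p ε G) with hq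
    haveI : (M.map q).Normal := Subgroup.Normal.map inferInstance q (QuotientGroup.mk'_surjective _)
    have hker : ∀ y ∈ O p ε M, (q.subgroupMap M) y = 1 := by
      intro y hy
      apply Subtype.ext
      have h1 : (y : G) ∈ O p ε G := H62.map_subtype_piCore_le _ M (Subgroup.mem_map_of_mem M.subtype hy)
      exact (QuotientGroup.eq_one_iff _).2 h1
    have h1 := U_map (QuotientGroup.lift (O p ε M) (q.subgroupMap M) hker) (by
      intro y
      obtain ⟨z, hz⟩ := q.subgroupMap_surjective M y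
      exact ⟨(z : M ⧸ O p ε M), hz⟩) hx
    exact ih (M.map q) h1

theorem U_le_succ {i : ℕ} {G : Type u} [Group G] {x : G} (hx : x ∈ U p i (!ε) G) : x ∈ U p (i + 1) ε G :=
  U_map (QuotientGroup.mk' (O p ε G)) (QuotientGroup.mk'_surjective _) hx

theorem U_of_O_eq_bot {i : ℕ} {G : Type u} [Group G] (h : O p ε G = ⊥) {x : G} (hx : x ∈ U p (i + 1) ε G) :
    x ∈ U p i (!ε) G := by
  rw [mem_U_succ] at hx
  exact U_map (QuotientGroup.lift (O p ε G) (MonoidHom.id G) (by
    intro y hy
    rw [h, mem_bot] at hy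
    rw [hy]
    exact one_mem _)) (fun y => ⟨(y : G ⧸ O p ε G), rfl⟩) hx

theorem dvd_card_comap {G : Type u} [Group G] [Finite G] (E : Subgroup G) [E.Normal] (K : Subgroup (G ⧸ E)) {q : ℕ}
    (hq : q.Prime) (h : q ∣ Nat.card (K.comap (QuotientGroup.mk' E))) : q ∣ Nat.card E ∨ q ∣ Nat.card K := by
  set C := K.comap (QuotientGroup.mk' E) with hC
  have hEC : E ≤ C := by
    intro x hx
    rw [hC, mem_comap, QuotientGroup.mk'_apply, (QuotientGroup.eq_one_iff _).2 hx]
    exact one_mem _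
  have h1 := Subgroup.relIndex_mul_relIndex ⊥ E C bot_le hEC
  rw [Subgroup.relIndex_bot_left, Subgroup.relIndex_bot_left] at h1
  have h2 : E.relIndex C = Nat.card K := by
    have h3 := Subgroup.relIndex_ker C (QuotientGroup.mk' E)
    rw [QuotientGroup.ker_mk'] at h3
    rw [h3, hC, Subgroup.map_comap_eq_self_of_surjective (QuotientGroup.mk'_surjective E)]
  rw [← h1, h2] at h
  exact (hq.dvd_mul).1 h

theorem U_of_quot {i : ℕ} {G : Type u} [Group G] [Finite G] (E : Subgroup G) [E.Normal]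
    (hE : ∀ q : ℕ, q.Prime → q ∣ Nat.card E → q ∈ Q p ε) {x : G}
    (hx : QuotientGroup.mk' E x ∈ U p (i + 1) ε (G ⧸ E)) : x ∈ U p (i + 1) ε G := by
  rw [mem_U_succ] at hx ⊢
  have hEO : E ≤ O p ε G := le_O inferInstance hE
  have hle : (O p ε (G ⧸ E)).comap (QuotientGroup.mk' E) ≤ O p ε G := by
    refine le_O inferInstance fun q hq hd => ?_
    rcases dvd_card_comap E _ hq hd with h | h
    · exact hE q hq h
    · exact O_prime hq h
  let f : G ⧸ E →* G ⧸ O p ε G := QuotientGroup.map E (O p ε G) (MonoidHom.id G) hEO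
  exact U_map (QuotientGroup.lift (O p ε (G ⧸ E)) f (by
    intro y hy
    obtain ⟨y, rfl⟩ := QuotientGroup.mk_surjective y
    exact (QuotientGroup.eq_one_iff _).2 (hle hy))) (by
    intro y
    obtain ⟨y, rfl⟩ := QuotientGroup.mk_surjective y
    exact ⟨((y : G ⧸ E) : (G ⧸ E) ⧸ O p ε (G ⧸ E)), rfl⟩) hx

theorem U_prod {i : ℕ} {A B : Type u} [Group A] [Group B] [Finite A] [Finite B] {a : A} {b : B}
    (ha : a ∈ U p i ε A) (hb : b ∈ U p i ε B) : (a, b) ∈ U p i ε (A × B) := by
  have h1 : ((a, 1) : A × B) ∈ U p i ε (A × B) := by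
    haveI : (MonoidHom.inl A B).range.Normal := by
      constructor
      rintro _ ⟨x, rfl⟩ g
      exact ⟨g.1 * x * g.1⁻¹, by ext <;> simp⟩
    have h2 := U_map (MonoidHom.inl A B).rangeRestrict (MonoidHom.rangeRestrict_surjective _) ha
    exact U_normal _ h2
  have h2 : ((1, b) : A × B) ∈ U p i ε (A × B) := by
    haveI : (MonoidHom.inr A B).range.Normal := by
      constructor
      rintro _ ⟨x, rfl⟩ g
      exact ⟨g.2 * x * g.2⁻¹, by ext <;> simp⟩
    have h2 := U_map (MonoidHom.inr A B).rangeRestrict (MonoidHom.rangeRestrict_surjective _) hb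
    exact U_normal _ h2
  have h3 := mul_mem h1 h2
  simpa using h3

theorem U_inf {i : ℕ} {G : Type u} [Group G] [Finite G] (Z Z' : Subgroup G) [Z.Normal] [Z'.Normal] {x : G}
    (h : QuotientGroup.mk' Z x ∈ U p i ε (G ⧸ Z)) (h' : QuotientGroup.mk' Z' x ∈ U p i ε (G ⧸ Z')) :
    QuotientGroup.mk' (Z ⊓ Z') x ∈ U p i ε (G ⧸ (Z ⊓ Z')) := by
  let f : G ⧸ (Z ⊓ Z') →* (G ⧸ Z) × (G ⧸ Z') := QuotientGroup.lift (Z ⊓ Z')
    ((QuotientGroup.mk' Z).prod (QuotientGroup.mk' Z')) (by
      intro y hy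
      exact Prod.ext ((QuotientGroup.eq_one_iff _).2 hy.1) ((QuotientGroup.eq_one_iff _).2 hy.2))
  refine U_comap f ?_ (U_prod h h')
  rw [injective_iff_map_eq_one]
  intro y hy
  obtain ⟨y, rfl⟩ := QuotientGroup.mk_surjective y
  have h1 : (QuotientGroup.mk' Z y, QuotientGroup.mk' Z' y) = (1, 1) := hy
  rw [Prod.mk.injEq] at h1
  exact (QuotientGroup.eq_one_iff _).2 ⟨(QuotientGroup.eq_one_iff _).1 h1.1, (QuotientGroup.eq_one_iff _).1 h1.2⟩

/-- type of the top layer -/
def ty : ℕ → Bool → Bool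
  | 0, ε => ε
  | i + 1, ε => ty i (!ε)

/-- elements of the other type lie one step lower -/
theorem U_pred {i : ℕ} : ∀ {ε : Bool} {G : Type u} [Group G] [Finite G] {x : G}, x ∈ U p (i + 1) ε G →
    (∀ q : ℕ, q.Prime → q ∣ orderOf x → q ∉ Q p (ty i ε)) → x ∈ U p i ε G := by
  induction i with
  | zero =>
    intro ε G _ _ x hx ho
    have h1 : x ∈ O p ε G := (QuotientGroup.eq_one_iff _).1 hx
    have h2 : orderOf x ∣ Nat.card (O p ε G) := by
      have := orderOf_dvd_natCard (⟨x, h1⟩ : O p ε G)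
      rwa [Subgroup.orderOf_mk] at this
    have h3 : orderOf x = 1 := by
      by_contra h3
      obtain ⟨q, hq, hd⟩ := Nat.exists_prime_and_dvd h3
      exact ho q hq hd (O_prime hq (hd.trans h2))
    rw [orderOf_eq_one_iff] at h3
    rw [h3]
    exact one_mem _
  | succ i ih =>
    intro ε G _ _ x hx ho
    rw [mem_U_succ] at hx ⊢
    exact ih hx fun q hq hd => ho q hq (hd.trans (orderOf_map_dvd _ _))

theorem U_mono {i : ℕ} : ∀ {ε : Bool} {G : Type u} [Group G] {x : G}, x ∈ U p i ε G → x ∈ U p (i + 1) ε G := by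
  induction i with
  | zero =>
    intro ε G _ x hx
    have h1 : x = 1 := hx
    rw [h1]
    exact one_mem _
  | succ i ih =>
    intro ε G _ x hx
    rw [mem_U_succ] at hx ⊢
    exact ih hx

theorem U_mono' {i j : ℕ} (h : i ≤ j) {G : Type u} [Group G] {x : G} (hx : x ∈ U p i ε G) : x ∈ U p j ε G := by
  induction j, h using Nat.le_induction with
  | base => exact hx
  | succ j _ ih => exact U_mono ih

end Cfsg.Agent.BlkInd.Pow
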